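import Mathlib

/-!
# S2127 team project (helper96): `|Out(²G₂(q))| = 2m + 1`, `q = 3^(2m+1)`, `m ≥ 1`

Definitions and exact piece statements (Mathlib only).

An abstract *Ree datum* over a field `K` in a group `G` (exponent `n = 3θ = 3^(m+1)`):
Ree words `R t u v` (the Sylow 3-subgroup `U`), torus elements `h κ` (`H`), a Weyl element `w`,
the group law of `U`, the action of `H` on `U` with weights `κ`, `κ^(n+1)`, `κ^(n+2)`,
the Bruhat decomposition `G = B ∪ B w U` (`B = U H`), `B ∩ w B w⁻¹ = H`, trivial core of `B`.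
The concrete datum of `twistedG2 K (3^m)` is built by helper96 from helper22's Ree library.
-/

set_option autoImplicit false

namespace Cfsg.Agent.H96.Ro

universe u v

/-- Abstract Ree datum. -/
structure Datum (K : Type u) [Field K] (G : Type v) [Group G] (n : ℕ) where
  R : K → K → K → G
  h : Kˣ → G
  w : G
  R_mul : ∀ t u v t' u' v' : K, R t u v * R t' u' v' =
    R (t + t') (u + u' - t' ^ n * t) (v + v' - t' * u + t' ^ n * t * t' - t' ^ n * t ^ 2)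
  R_inj : ∀ t u v t' u' v' : K, R t u v = R t' u' v' → t = t' ∧ u = u' ∧ v = v'
  h_mul : ∀ a b : Kˣ, h (a * b) = h a * h b
  h_inj : Function.Injective h
  h_conj : ∀ (κ : Kˣ) (t u v : K), h κ * R t u v * (h κ)⁻¹ =
    R ((κ : K) * t) ((κ : K) ^ (n + 1) * u) ((κ : K) ^ (n + 2) * v)
  bruhat : ∀ g : G, (∃ (t u v : K) (κ : Kˣ), g = R t u v * h κ) ∨
    ∃ (t u v : K) (κ : Kˣ) (t' u' v' : K), g = R t u v * h κ * w * R t' u' v'
  UH : ∀ (t u v : K) (κ : Kˣ), R t u v = h κ → κ = 1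
  BwB : ∀ (t u v : K) (κ : Kˣ) (t' u' v' : K) (κ' : Kˣ),
    w⁻¹ * (R t u v * h κ) * w = R t' u' v' * h κ' → t = 0 ∧ u = 0 ∧ v = 0
  wH : ∀ κ : Kˣ, ∃ κ' : Kˣ, w⁻¹ * h κ * w = h κ'
  core : ∀ g : G, (∀ x : G, ∃ (t u v : K) (κ : Kˣ), x⁻¹ * g * x = R t u v * h κ) → g = 1
  syl : ∃ P : Sylow 3 G, ∀ x : G, x ∈ P ↔ ∃ t u v : K, x = R t u v

/-- The group law of `U` on coordinates. -/
def rm {K : Type u} [Field K] (n : ℕ) (a b : K × K × K) : K × K × K :=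
  (a.1 + b.1, a.2.1 + b.2.1 - b.1 ^ n * a.1,
    a.2.2 + b.2.2 - b.1 * a.2.1 + b.1 ^ n * a.1 * b.1 - b.1 ^ n * a.1 ^ 2)

/-- The action of `H` on coordinates. -/
def ha {K : Type u} [Field K] (n : ℕ) (κ : K) (a : K × K × K) : K × K × K :=
  (κ * a.1, κ ^ (n + 1) * a.2.1, κ ^ (n + 2) * a.2.2)

/-! ## Arithmetic and the group law -/

/-- RO-ARITH: arithmetic of `n = 3^(m+1)` in the field with `q = 3^(2m+1)` elements
(`n² = 3q`). -/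
def StArith : Prop :=
  ∀ (K : Type u) [Field K] [Fintype K] [CharP K 3] (m : ℕ), 1 ≤ m →
    Fintype.card K = 3 ^ (2 * m + 1) →
    (∀ r : K, r ^ (3 ^ (m + 1) * 3 ^ (m + 1)) = r ^ 3) ∧
    (∃ t : K, t ^ 3 ^ (m + 1) ≠ t) ∧
    (∀ r : K, r ≠ 0 → (r ^ (3 ^ (m + 1) - 1)) ^ (3 ^ (m + 1) + 1) = r ^ 2) ∧
    (∀ r : K, r ≠ 0 → (r⁻¹ ^ (3 ^ (m + 1) - 2)) ^ (3 ^ (m + 1) + 2) = r) ∧
    (∀ r : K, r ≠ 0 → r ^ (3 ^ (m + 1) + 1) = 1 → r ^ 2 = 1) ∧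
    (∃ r : K, r ≠ 0 ∧ r ^ 2 ≠ 1) ∧
    (∀ a b : K, (a + b) ^ 3 ^ (m + 1) = a ^ 3 ^ (m + 1) + b ^ 3 ^ (m + 1))

/-- RO-CUBE: the cube of a Ree word, on coordinates and in a datum. -/
def StCube : Prop :=
  ∀ (K : Type u) [Field K] [CharP K 3] (n : ℕ),
    (∀ a : K × K × K, rm n (rm n a a) a = (0, 0, -(a.1 ^ (n + 2)))) ∧
    ∀ (G : Type v) [Group G] (D : Datum K G n) (t u v : K),
      D.R t u v ^ 3 = D.R 0 0 (-(t ^ (n + 2)))

/-- RO-CARD: a field with `3^(2m+1)` elements has `2m+1` automorphisms. -/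
def StCard : Prop :=
  ∀ (K : Type u) [Field K] [Fintype K] (m : ℕ), Fintype.card K = 3 ^ (2 * m + 1) →
    Nat.card (K ≃+* K) = 2 * m + 1

/-! ## Automorphisms normalising `U` and `H` -/

/-- RO-SHAPE: an automorphism preserving `U` and `H` induces an additive injective map `f` on the
first coordinate and a multiplicative map `ψ` on the torus, with `f (κ t) = ψ κ · f t`. -/
def StShape : Prop :=
  ∀ (K : Type u) [Field K] [Fintype K] [CharP K 3] (G : Type v) [Group G] (n : ℕ)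
    (D : Datum K G n) (β : G ≃* G),
    (∀ t u v : K, ∃ t' u' v' : K, β (D.R t u v) = D.R t' u' v') →
    (∀ κ : Kˣ, ∃ κ' : Kˣ, β (D.h κ) = D.h κ') →
    ∃ (f : K → K) (ψ : Kˣ → Kˣ),
      (∀ t u v : K, ∃ u' v' : K, β (D.R t u v) = D.R (f t) u' v') ∧
      (∀ κ : Kˣ, β (D.h κ) = D.h (ψ κ)) ∧
      (∀ s t : K, f (s + t) = f s + f t) ∧ (∀ t : K, f t = 0 → t = 0) ∧
      (∀ a b : Kˣ, ψ (a * b) = ψ a * ψ b) ∧
      (∀ (κ : Kˣ) (t : K), f ((κ : K) * t) = ((ψ κ : Kˣ) : K) * f t)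

/-- RO-FIELD: such a pair `(f, ψ)` comes from a field automorphism. -/
def StField : Prop :=
  ∀ (K : Type u) [Field K] [Fintype K] (f : K → K) (ψ : Kˣ → Kˣ),
    (∀ s t : K, f (s + t) = f s + f t) → (∀ t : K, f t = 0 → t = 0) →
    (∀ a b : Kˣ, ψ (a * b) = ψ a * ψ b) →
    (∀ (κ : Kˣ) (t : K), f ((κ : K) * t) = ((ψ κ : Kˣ) : K) * f t) →
    ∃ σ : K ≃+* K, (∀ κ : Kˣ, ((ψ κ : Kˣ) : K) = σ (κ : K)) ∧ ∀ t : K, f t = σ t * f 1

/-- RO-TRIV1: the shape of a multiplicative `H`-equivariant self-map `γ` of `(K³, rm)` which is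
the identity on the first coordinate of `(t, 0, 0)`. -/
def StTriv1 : Prop :=
  ∀ (K : Type u) [Field K] [Fintype K] [CharP K 3] (m : ℕ), 1 ≤ m →
    Fintype.card K = 3 ^ (2 * m + 1) → ∀ γ : K × K × K → K × K × K,
    (∀ a b, γ (rm (3 ^ (m + 1)) a b) = rm (3 ^ (m + 1)) (γ a) (γ b)) →
    (∀ κ : K, κ ≠ 0 → ∀ a, γ (ha (3 ^ (m + 1)) κ a) = ha (3 ^ (m + 1)) κ (γ a)) →
    (∀ t : K, (γ (t, 0, 0)).1 = t) →
    ∃ F2 G3 f3 g1 g2 : K → K,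
      (∀ t u v : K, γ (t, u, v) = (t, g1 t + F2 u, g2 t + G3 u + f3 v)) ∧
      (∀ x y : K, F2 (x + y) = F2 x + F2 y) ∧ (∀ x y : K, G3 (x + y) = G3 x + G3 y) ∧
      (∀ x y : K, f3 (x + y) = f3 x + f3 y) ∧
      (∀ κ : K, κ ≠ 0 → ∀ x : K, F2 (κ ^ (3 ^ (m + 1) + 1) * x) = κ ^ (3 ^ (m + 1) + 1) * F2 x) ∧
      (∀ κ : K, κ ≠ 0 → ∀ x : K, G3 (κ ^ (3 ^ (m + 1) + 1) * x) = κ ^ (3 ^ (m + 1) + 2) * G3 x) ∧
      (∀ κ : K, κ ≠ 0 → ∀ x : K, g1 (κ * x) = κ ^ (3 ^ (m + 1) + 1) * g1 x) ∧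
      (∀ κ : K, κ ≠ 0 → ∀ x : K, g2 (κ * x) = κ ^ (3 ^ (m + 1) + 2) * g2 x)

/-- RO-TRIV2A: in that shape, `F2 = id`, `g1 = 0`, `G3 = 0`. -/
def StTriv2A : Prop :=
  ∀ (K : Type u) [Field K] [Fintype K] [CharP K 3] (m : ℕ), 1 ≤ m →
    Fintype.card K = 3 ^ (2 * m + 1) → ∀ γ : K × K × K → K × K × K,
    (∀ a b, γ (rm (3 ^ (m + 1)) a b) = rm (3 ^ (m + 1)) (γ a) (γ b)) →
    ∀ F2 G3 f3 g1 g2 : K → K,
      (∀ t u v : K, γ (t, u, v) = (t, g1 t + F2 u, g2 t + G3 u + f3 v)) →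
      (∀ x y : K, F2 (x + y) = F2 x + F2 y) → (∀ x y : K, G3 (x + y) = G3 x + G3 y) →
      (∀ κ : K, κ ≠ 0 → ∀ x : K, F2 (κ ^ (3 ^ (m + 1) + 1) * x) = κ ^ (3 ^ (m + 1) + 1) * F2 x) →
      (∀ κ : K, κ ≠ 0 → ∀ x : K, G3 (κ ^ (3 ^ (m + 1) + 1) * x) = κ ^ (3 ^ (m + 1) + 2) * G3 x) →
      (∀ κ : K, κ ≠ 0 → ∀ x : K, g1 (κ * x) = κ ^ (3 ^ (m + 1) + 1) * g1 x) →
      (∀ x : K, F2 x = x) ∧ (∀ x : K, g1 x = 0) ∧ (∀ x : K, G3 x = 0)

/-- RO-TRIV2B: then also `f3 = id` and `g2 = 0`. -/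
def StTriv2B : Prop :=
  ∀ (K : Type u) [Field K] [Fintype K] [CharP K 3] (m : ℕ), 1 ≤ m →
    Fintype.card K = 3 ^ (2 * m + 1) → ∀ γ : K × K × K → K × K × K,
    (∀ a b, γ (rm (3 ^ (m + 1)) a b) = rm (3 ^ (m + 1)) (γ a) (γ b)) →
    ∀ f3 g2 : K → K,
      (∀ t u v : K, γ (t, u, v) = (t, u, g2 t + f3 v)) →
      (∀ x y : K, f3 (x + y) = f3 x + f3 y) →
      (∀ κ : K, κ ≠ 0 → ∀ x : K, g2 (κ * x) = κ ^ (3 ^ (m + 1) + 2) * g2 x) →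
      (∀ x : K, f3 x = x) ∧ (∀ x : K, g2 x = 0)

/-- RO-TRIV: a multiplicative `H`-equivariant self-map of `(K³, rm)` which is the identity on the
first coordinate of `(t, 0, 0)` is the identity. -/
def StTriv : Prop :=
  ∀ (K : Type u) [Field K] [Fintype K] [CharP K 3] (m : ℕ), 1 ≤ m →
    Fintype.card K = 3 ^ (2 * m + 1) → ∀ γ : K × K × K → K × K × K,
    (∀ a b, γ (rm (3 ^ (m + 1)) a b) = rm (3 ^ (m + 1)) (γ a) (γ b)) →
    (∀ κ : K, κ ≠ 0 → ∀ a, γ (ha (3 ^ (m + 1)) κ a) = ha (3 ^ (m + 1)) κ (γ a)) →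
    (∀ t : K, (γ (t, 0, 0)).1 = t) → ∀ a, γ a = a

/-- RO-COORD: an automorphism preserving `U` and `H` is, on `U` and `H`, a field automorphism
followed by conjugation with an element of `H`. -/
def StCoord : Prop :=
  ∀ (K : Type u) [Field K] [Fintype K] [CharP K 3] (m : ℕ), 1 ≤ m →
    Fintype.card K = 3 ^ (2 * m + 1) → ∀ (G : Type v) [Group G] (D : Datum K G (3 ^ (m + 1)))
    (β : G ≃* G),
    (∀ t u v : K, ∃ t' u' v' : K, β (D.R t u v) = D.R t' u' v') →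
    (∀ κ : Kˣ, ∃ κ' : Kˣ, β (D.h κ) = D.h κ') →
    ∃ (σ : K ≃+* K) (c : Kˣ),
      (∀ t u v : K, β (D.R t u v) = D.h c * D.R (σ t) (σ u) (σ v) * (D.h c)⁻¹) ∧
      (∀ κ : Kˣ, ∃ κ' : Kˣ, (κ' : K) = σ (κ : K) ∧ β (D.h κ) = D.h κ')

/-! ## Normalisation, rigidity, inner field automorphisms -/

/-- RO-NORMA: after an inner automorphism, an automorphism preserves `U` (Sylow). -/
def StNormA : Prop :=
  ∀ (K : Type u) [Field K] [Fintype K] (G : Type v) [Group G] [Finite G] (n : ℕ)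
    (D : Datum K G n) (α : G ≃* G),
    ∃ g : G, ∀ t u v : K, ∃ t' u' v' : K, g * α (D.R t u v) * g⁻¹ = D.R t' u' v'

/-- RO-NORMB: an automorphism preserving `U` maps `H` to a `U`-conjugate of `H`. -/
def StNormB : Prop :=
  ∀ (K : Type u) [Field K] [Fintype K] (G : Type v) [Group G] (n : ℕ)
    (D : Datum K G n) (β : G ≃* G),
    (∀ t u v : K, ∃ t' u' v' : K, β (D.R t u v) = D.R t' u' v') →
    ∃ a b c : K, ∀ κ : Kˣ, ∃ κ' : Kˣ, (D.R a b c)⁻¹ * β (D.h κ) * D.R a b c = D.h κ'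

/-- RO-NORM: after an inner automorphism, an automorphism preserves `U` and `H`. -/
def StNorm : Prop :=
  ∀ (K : Type u) [Field K] [Fintype K] (G : Type v) [Group G] [Finite G] (n : ℕ)
    (D : Datum K G n) (α : G ≃* G),
    ∃ g : G, (∀ t u v : K, ∃ t' u' v' : K, g * α (D.R t u v) * g⁻¹ = D.R t' u' v') ∧
      ∀ κ : Kˣ, ∃ κ' : Kˣ, g * α (D.h κ) * g⁻¹ = D.h κ'

/-- RO-RIGID: an automorphism fixing `U` and `H` pointwise is the identity. -/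
def StRigid : Prop :=
  ∀ (K : Type u) [Field K] [Fintype K] [CharP K 3] (m : ℕ), 1 ≤ m →
    Fintype.card K = 3 ^ (2 * m + 1) → ∀ (G : Type v) [Group G] (D : Datum K G (3 ^ (m + 1)))
    (β : G ≃* G),
    (∀ t u v : K, β (D.R t u v) = D.R t u v) → (∀ κ : Kˣ, β (D.h κ) = D.h κ) →
    ∀ x : G, β x = x

/-- RO-INNER: a field automorphism which is induced by conjugation is trivial. -/
def StInner : Prop :=
  ∀ (K : Type u) [Field K] [Fintype K] [CharP K 3] (m : ℕ), 1 ≤ m →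
    Fintype.card K = 3 ^ (2 * m + 1) → ∀ (G : Type v) [Group G] (D : Datum K G (3 ^ (m + 1)))
    (σ : K ≃+* K) (g : G),
    (∀ t u v : K, g * D.R t u v * g⁻¹ = D.R (σ t) (σ u) (σ v)) →
    (∀ κ : Kˣ, ∃ κ' : Kˣ, g * D.h κ * g⁻¹ = D.h κ') →
    ∀ x : K, σ x = x

/-- RO-FINAL: the outer automorphism group has order `2m+1`. -/
def StFinal : Prop :=
  ∀ (K : Type u) [Field K] [Fintype K] [CharP K 3] (m : ℕ), 1 ≤ m →
    Fintype.card K = 3 ^ (2 * m + 1) → ∀ (G : Type v) [Group G] [Finite G]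
    (D : Datum K G (3 ^ (m + 1))) (Φ : (K ≃+* K) →* MulAut G),
    (∀ (σ : K ≃+* K) (t u v : K), Φ σ (D.R t u v) = D.R (σ t) (σ u) (σ v)) →
    (∀ (σ : K ≃+* K) (κ : Kˣ), ∃ κ' : Kˣ, (κ' : K) = σ (κ : K) ∧ Φ σ (D.h κ) = D.h κ') →
    Nat.card (MulAut G ⧸ (MulAut.conj : G →* MulAut G).range) = 2 * m + 1

end Cfsg.Agent.H96.Ro
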