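import Cfsg.Agent.H46.OutGDefs

/-!
# OG-ROOTS (helper96, for helper46's S2121 / S2122 project)

Over a finite field, an automorphism mapping every root element to a root element, positive roots to positive
roots and negative roots to negative roots, preserves `U` and `V`.
-/

set_option autoImplicit false

namespace Cfsg.Agent.H96.OutG

open Cfsg.Lie Cfsg.Agent.H23 Cfsg.Agent.H23.Stb Cfsg.Agent.H46.OutE Cfsg.Agent.H46.OutG

universe u

/-- The generic statement: an automorphism mapping the generators of `rootGen P` into `rootGen P` maps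
`rootGen P ∩ G` onto itself, the group being finite. -/
theorem pres_of_roots {D : ChevalleyDatum} {F : Type u} [Field F] [Finite F] {z : ℕ → ℕ → ℤ}
    (hS : Sem D F z) (θ : ↥(D.group F) ≃* ↥(D.group F)) (ρ : ℕ → ℕ) (P : ℕ → Prop)
    (hP : ∀ r, P r → r < D.nroots) (hρ : ∀ r, P r → P (ρ r))
    (h : ∀ r < D.nroots, ∀ t : F, ∃ t' : F, θ (xG hS r t) = xG hS (ρ r) t') :
    Pres θ (rootGen D F P) (rootGen D F P) := by
  have hfin : Finite ↥(D.group F) := inferInstance
  have fwd : ∀ g : ↥(D.group F), (g : GL D.Idx F) ∈ rootGen D F P →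
      ((θ g : ↥(D.group F)) : GL D.Idx F) ∈ rootGen D F P := by
    have hle : rootGen D F P ≤
        (((rootGen D F P).subgroupOf (D.group F)).comap θ.toMonoidHom).map (D.group F).subtype := by
      apply rootGen_le hS P
      intro r hr t
      obtain ⟨t', ht'⟩ := h r (hP r hr) t
      rw [Subgroup.mem_map]
      refine ⟨xG hS r t, ?_, rfl⟩
      rw [Subgroup.mem_comap, Subgroup.mem_subgroupOf]
      show ((θ (xG hS r t) : ↥(D.group F)) : GL D.Idx F) ∈ rootGen D F P
      rw [ht']
      exact xU_mem_rootGen hS P (ρ r) (hρ r hr) t'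
    intro g hg
    have hg2 := hle hg
    rw [Subgroup.mem_map] at hg2
    obtain ⟨g', hg', hgg'⟩ := hg2
    have hgeq : g' = g := Subtype.ext hgg'
    subst hgeq
    rw [Subgroup.mem_comap, Subgroup.mem_subgroupOf] at hg'
    exact hg'
  intro g
  refine ⟨fun hθ => ?_, fwd g⟩
  have hinj : Function.Injective
      (fun s : {g : ↥(D.group F) // (g : GL D.Idx F) ∈ rootGen D F P} =>
        (⟨θ s.1, fwd s.1 s.2⟩ : {g : ↥(D.group F) // (g : GL D.Idx F) ∈ rootGen D F P})) := by
    intro a b hab
    have h1 : θ a.1 = θ b.1 := congrArg Subtype.val hab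
    exact Subtype.ext (θ.injective h1)
  have hsurj := Finite.injective_iff_surjective.mp hinj
  obtain ⟨s, hs⟩ := hsurj ⟨θ g, hθ⟩
  have h1 : θ s.1 = θ g := congrArg Subtype.val hs
  have h2 : s.1 = g := θ.injective h1
  rw [← h2]
  exact s.2

/-- **OG-ROOTS**. -/
theorem rootPres : StRootPres.{u} := by
  intro D F _ _ z hS θ ρ hpos hneg h
  exact ⟨pres_of_roots hS θ ρ D.IsPosRoot (fun r hr => hr.1) hpos h,
    pres_of_roots hS θ ρ D.IsNegRoot (fun r hr => hr.1) hneg h⟩

example : Cfsg.Agent.H46.OutG.StRootPres.{u} := rootPres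

end Cfsg.Agent.H96.OutG

#print axioms Cfsg.Agent.H96.OutG.rootPres
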