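import Cfsg.Agent.H95.ND1

set_option autoImplicit false
set_option linter.unusedSectionVars false

/-! helper96: definitions, basic lemmas and piece statements for S5700 (the normaliser of a
quadratic extension field carrying a hermitian structure, type GU, is maximal in the
commutator subgroup of the isometry group of a quadratic form, dimension at least 14).

Abstract setting: `Q` a non-degenerate quadratic form on `F^ι` (bundled), `B = polar Q`,
`J` a linear map with `J (J x) = t • J x - N • x`, the polynomial `X^2 - t X + N` without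
roots in `F`, `B (J x) y = t * B x y - B x (J y)`, `Q (J x) = N * Q x`, `B x (J x) = t * Q x`.
`M` is a subgroup of the isometry group containing the Siegel elements at `(u, J u)`. -/

namespace Cfsg.Agent.H96.Gu

open Module Matrix Cfsg.Agent.H49 Cfsg.Agent.H95

universe u

section
variable {ι : Type} [Fintype ι] [DecidableEq ι] {F : Type u} [Field F]

/-- The abstract setting. -/
structure Ctx (Q : QuadraticForm F (ι → F)) (J : (ι → F) →ₗ[F] (ι → F)) (t N : F) : Prop where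
  nd : (QuadraticMap.polarBilin Q).Nondegenerate
  ts : HasTS3 Q
  dim : 14 ≤ Fintype.card ι
  sq : ∀ x, J (J x) = t • J x - N • x
  irr : ∀ a : F, a * a - t * a + N ≠ 0
  adj : ∀ x y, QuadraticMap.polar (⇑Q) (J x) y
      = t * QuadraticMap.polar (⇑Q) x y - QuadraticMap.polar (⇑Q) x (J y)
  qJ : ∀ x, Q (J x) = N * Q x
  bJ : ∀ x, QuadraticMap.polar (⇑Q) x (J x) = t * Q x

/-- `x` is orthogonal to `y` and to `J y` (equivalently: the `F[J]`-lines of `x`, `y` are
orthogonal). -/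
def hp (Q : QuadraticForm F (ι → F)) (J : (ι → F) →ₗ[F] (ι → F)) (x y : ι → F) : Prop :=
  QuadraticMap.polar (⇑Q) x y = 0 ∧ QuadraticMap.polar (⇑Q) x (J y) = 0

/-- `y` lies in the `F[J]`-line of `u`. -/
def inK (J : (ι → F) →ₗ[F] (ι → F)) (u y : ι → F) : Prop :=
  ∃ a b : F, y = a • u + b • J u

/-- `M` contains the Siegel elements at `(u, J u)` for all singular `u`. -/
def HasTau (Q : QuadraticForm F (ι → F)) (J : (ι → F) →ₗ[F] (ι → F))
    (M : Subgroup ↥(Cfsg.isometryGroup F (⇑Q))) : Prop :=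
  ∀ u : ι → F, Q u = 0 → eichDir Q M u (J u)

/-- `g` normalises `F[J]`. -/
def Nrm (Q : QuadraticForm F (ι → F)) (J : (ι → F) →ₗ[F] (ι → F))
    (g : ↥(Cfsg.isometryGroup F (⇑Q))) : Prop :=
  ∃ a b : F, ∀ x : ι → F, act g (J x) = a • act g x + b • J (act g x)

/-- Every vector orthogonal to the `F[J]`-line of `u` is an Eichler direction at `u`. -/
def PH (Q : QuadraticForm F (ι → F)) (J : (ι → F) →ₗ[F] (ι → F))
    (M : Subgroup ↥(Cfsg.isometryGroup F (⇑Q))) (u : ι → F) : Prop :=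
  ∀ z : ι → F, hp Q J z u → eichDir Q M u z

/-- Every vector orthogonal to `u` is an Eichler direction at `u`. -/
def Full (Q : QuadraticForm F (ι → F)) (M : Subgroup ↥(Cfsg.isometryGroup F (⇑Q)))
    (u : ι → F) : Prop :=
  ∀ z : ι → F, QuadraticMap.polar (⇑Q) u z = 0 → eichDir Q M u z

variable {Q : QuadraticForm F (ι → F)} {J : (ι → F) →ₗ[F] (ι → F)} {t N : F}

theorem Ctx.adj' (C : Ctx Q J t N) (x y : ι → F) :
    QuadraticMap.polar (⇑Q) x (J y)
      = t * QuadraticMap.polar (⇑Q) x y - QuadraticMap.polar (⇑Q) (J x) y := by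
  rw [C.adj]; ring

theorem Ctx.polJJ (C : Ctx Q J t N) (x y : ι → F) :
    QuadraticMap.polar (⇑Q) (J x) (J y) = N * QuadraticMap.polar (⇑Q) x y := by
  rw [C.adj, C.sq, QuadraticMap.polar_sub_right, QuadraticMap.polar_smul_right,
    QuadraticMap.polar_smul_right, smul_eq_mul, smul_eq_mul]
  ring

theorem Ctx.N_ne (C : Ctx Q J t N) : N ≠ 0 := by
  have := C.irr 0
  simpa using this

theorem Ctx.norm_ne (C : Ctx Q J t N) (a b : F) (h : ¬ (a = 0 ∧ b = 0)) :
    a * a - t * a * b + N * b * b ≠ 0 := by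
  by_cases hb : b = 0
  · subst hb
    have ha : a ≠ 0 := fun ha => h ⟨ha, rfl⟩
    simpa using ha
  · intro h0
    apply C.irr (a / b)
    field_simp
    linear_combination h0

theorem Ctx.sing_J (C : Ctx Q J t N) {u : ι → F} (hu : Q u = 0) : Q (J u) = 0 := by
  rw [C.qJ, hu, mul_zero]

theorem Ctx.pol_self_J (C : Ctx Q J t N) {u : ι → F} (hu : Q u = 0) :
    QuadraticMap.polar (⇑Q) u (J u) = 0 := by
  rw [C.bJ, hu, mul_zero]

theorem pol_self (Q : QuadraticForm F (ι → F)) {u : ι → F} (hu : Q u = 0) :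
    QuadraticMap.polar (⇑Q) u u = 0 := by
  rw [polar_self', hu, mul_zero]

theorem hp_symm (C : Ctx Q J t N) {x y : ι → F} (h : hp Q J x y) : hp Q J y x := by
  refine ⟨by rw [QuadraticMap.polar_comm]; exact h.1, ?_⟩
  rw [C.adj', QuadraticMap.polar_comm, h.1, QuadraticMap.polar_comm, h.2]
  ring

theorem hp_J_right (C : Ctx Q J t N) {x y : ι → F} (h : hp Q J x y) : hp Q J x (J y) := by
  refine ⟨h.2, ?_⟩
  rw [C.sq, QuadraticMap.polar_sub_right, QuadraticMap.polar_smul_right,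
    QuadraticMap.polar_smul_right, h.1, h.2]
  simp

theorem hp_J_left (C : Ctx Q J t N) {x y : ι → F} (h : hp Q J x y) : hp Q J (J x) y :=
  hp_symm C (hp_J_right C (hp_symm C h))

theorem hp_add_left {x₁ x₂ y : ι → F} (h₁ : hp Q J x₁ y) (h₂ : hp Q J x₂ y) :
    hp Q J (x₁ + x₂) y := by
  refine ⟨?_, ?_⟩
  · rw [QuadraticMap.polar_add_left, h₁.1, h₂.1, add_zero]
  · rw [QuadraticMap.polar_add_left, h₁.2, h₂.2, add_zero]

theorem hp_smul_left {x y : ι → F} (a : F) (h : hp Q J x y) : hp Q J (a • x) y := by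
  refine ⟨?_, ?_⟩
  · rw [QuadraticMap.polar_smul_left, h.1, smul_zero]
  · rw [QuadraticMap.polar_smul_left, h.2, smul_zero]

theorem hp_self (C : Ctx Q J t N) {u : ι → F} (hu : Q u = 0) : hp Q J u u :=
  ⟨pol_self Q hu, C.pol_self_J hu⟩

/-- The Eichler map at `(w, c • J w)` for singular `w`. -/
theorem eich_tau (C : Ctx Q J t N) {w : ι → F} (hw : Q w = 0) (c : F) (x : ι → F) :
    eich Q w (c • J w) x
      = x + c • (QuadraticMap.polar (⇑Q) w x • J w - QuadraticMap.polar (⇑Q) (J w) x • w) := by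
  unfold eich
  rw [QuadraticMap.map_smul, C.sing_J hw, QuadraticMap.polar_smul_left]
  simp only [smul_eq_mul, mul_zero, zero_mul, zero_smul, sub_zero]
  module

end

/-! ### Piece statements -/

/-- GU-IND: independence of `u, J u` and of `u, J u, y, J y`. -/
def StInd : Prop :=
  ∀ {ι : Type} [Fintype ι] [DecidableEq ι] {F : Type u} [Field F] [Fintype F]
    (Q : QuadraticForm F (ι → F)) (J : (ι → F) →ₗ[F] (ι → F)) (t N : F), Ctx Q J t N →
    ∀ u : ι → F, u ≠ 0 →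
      (∀ a b : F, a • u + b • J u = 0 → a = 0 ∧ b = 0) ∧
      (∀ y : ι → F, ¬ inK J u y → ∀ a b c d : F,
        a • u + b • J u + c • y + d • J y = 0 → a = 0 ∧ b = 0 ∧ c = 0 ∧ d = 0)

/-- GU-GP: singular vectors with prescribed inner products. -/
def StGP : Prop :=
  ∀ {ι : Type} [Fintype ι] [DecidableEq ι] {F : Type u} [Field F] [Fintype F]
    (Q : QuadraticForm F (ι → F)) (J : (ι → F) →ₗ[F] (ι → F)) (t N : F), Ctx Q J t N →
    ∀ u : ι → F, u ≠ 0 →
      (∀ c₁ c₂ : F, ∃ w : ι → F, Q w = 0 ∧ QuadraticMap.polar (⇑Q) w u = c₁ ∧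
        QuadraticMap.polar (⇑Q) w (J u) = c₂) ∧
      (∀ y : ι → F, ¬ inK J u y → ∀ c₁ c₂ c₃ c₄ : F, ∃ w : ι → F, Q w = 0 ∧
        QuadraticMap.polar (⇑Q) w u = c₁ ∧ QuadraticMap.polar (⇑Q) w (J u) = c₂ ∧
        QuadraticMap.polar (⇑Q) w y = c₃ ∧ QuadraticMap.polar (⇑Q) w (J y) = c₄)

/-- GU-SNM: a singular vector orthogonal to, and outside, the span of `u, J u, v, J v`. -/
def StSNM : Prop :=
  ∀ {ι : Type} [Fintype ι] [DecidableEq ι] {F : Type u} [Field F] [Fintype F]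
    (Q : QuadraticForm F (ι → F)) (J : (ι → F) →ₗ[F] (ι → F)) (t N : F), Ctx Q J t N →
    ∀ u v : ι → F, ∃ e : ι → F, Q e = 0 ∧ hp Q J e u ∧ hp Q J e v ∧
      ∀ a b c d : F, e ≠ a • u + b • J u + c • v + d • J v

/-- GU-KAPPA: the basic transfer lemma. -/
def StKappa : Prop :=
  ∀ {ι : Type} [Fintype ι] [DecidableEq ι] {F : Type u} [Field F] [Fintype F]
    (Q : QuadraticForm F (ι → F)) (J : (ι → F) →ₗ[F] (ι → F)) (t N : F), Ctx Q J t N →
    ∀ M : Subgroup ↥(Cfsg.isometryGroup F (⇑Q)), HasTau Q J M →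
    ∀ u y₀ w₁ w₂ : ι → F, Q u = 0 → eichDir Q M u y₀ → Q w₁ = 0 → Q w₂ = 0 →
      hp Q J w₁ u → hp Q J w₂ u → hp Q J w₁ w₂ → hp Q J w₂ y₀ → ¬ hp Q J w₁ y₀ →
      eichDir Q M u w₂

/-- GU-FULL1: an Eichler direction outside the hermitian perp makes the point full. -/
def StFull1 : Prop :=
  ∀ {ι : Type} [Fintype ι] [DecidableEq ι] {F : Type u} [Field F] [Fintype F]
    (Q : QuadraticForm F (ι → F)) (J : (ι → F) →ₗ[F] (ι → F)) (t N : F), Ctx Q J t N →
    ∀ M : Subgroup ↥(Cfsg.isometryGroup F (⇑Q)), HasTau Q J M →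
    ∀ u y₀ : ι → F, u ≠ 0 → Q u = 0 → eichDir Q M u y₀ →
      QuadraticMap.polar (⇑Q) u (J y₀) ≠ 0 → Full Q M u

/-- GU-HPERP: a singular Eichler direction in the hermitian perp outside the line gives the
whole hermitian perp. -/
def StHperp : Prop :=
  ∀ {ι : Type} [Fintype ι] [DecidableEq ι] {F : Type u} [Field F] [Fintype F]
    (Q : QuadraticForm F (ι → F)) (J : (ι → F) →ₗ[F] (ι → F)) (t N : F), Ctx Q J t N →
    ∀ M : Subgroup ↥(Cfsg.isometryGroup F (⇑Q)), HasTau Q J M →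
    ∀ u y₀ : ι → F, u ≠ 0 → Q u = 0 → Q y₀ = 0 → eichDir Q M u y₀ → hp Q J y₀ u →
      ¬ inK J u y₀ → PH Q J M u

/-- GU-FT: an isometry mapping the `F[J]`-line of every singular vector into the `F[J]`-line
of its image normalises `F[J]`. -/
def StFT : Prop :=
  ∀ {ι : Type} [Fintype ι] [DecidableEq ι] {F : Type u} [Field F] [Fintype F]
    (Q : QuadraticForm F (ι → F)) (J : (ι → F) →ₗ[F] (ι → F)) (t N : F), Ctx Q J t N →
    ∀ g : ↥(Cfsg.isometryGroup F (⇑Q)),
      (∀ z : ι → F, Q z = 0 → ∃ a b : F, act g (J z) = a • act g z + b • J (act g z)) →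
      Nrm Q J g

/-- GU-PROP: propagation of `PH`. -/
def StProp : Prop :=
  ∀ {ι : Type} [Fintype ι] [DecidableEq ι] {F : Type u} [Field F] [Fintype F]
    (Q : QuadraticForm F (ι → F)) (J : (ι → F) →ₗ[F] (ι → F)) (t N : F), Ctx Q J t N →
    ∀ M : Subgroup ↥(Cfsg.isometryGroup F (⇑Q)), HasTau Q J M →
    ∀ u : ι → F, u ≠ 0 → Q u = 0 → PH Q J M u →
    ∀ v : ι → F, v ≠ 0 → Q v = 0 → PH Q J M v

/-- GU-V: if all Eichler directions are exactly the hermitian perps, `M` normalises `F[J]`. -/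
def StV : Prop :=
  ∀ {ι : Type} [Fintype ι] [DecidableEq ι] {F : Type u} [Field F] [Fintype F]
    (Q : QuadraticForm F (ι → F)) (J : (ι → F) →ₗ[F] (ι → F)) (t N : F), Ctx Q J t N →
    ∀ M : Subgroup ↥(Cfsg.isometryGroup F (⇑Q)), HasTau Q J M →
    (∀ v : ι → F, v ≠ 0 → Q v = 0 → PH Q J M v) →
    (∀ v y : ι → F, v ≠ 0 → Q v = 0 → eichDir Q M v y →
      QuadraticMap.polar (⇑Q) v (J y) = 0) →
    ∀ m ∈ M, Nrm Q J m

/-- GU-VI: one full point gives the commutator subgroup. -/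
def StVI : Prop :=
  ∀ {ι : Type} [Fintype ι] [DecidableEq ι] {F : Type u} [Field F] [Fintype F]
    (Q : QuadraticForm F (ι → F)) (J : (ι → F) →ₗ[F] (ι → F)) (t N : F), Ctx Q J t N →
    ∀ M : Subgroup ↥(Cfsg.isometryGroup F (⇑Q)), HasTau Q J M →
    ∀ v : ι → F, v ≠ 0 → Q v = 0 → Full Q M v →
      commutator ↥(Cfsg.isometryGroup F (⇑Q)) ≤ M

/-- GU-PROPER: some element of the commutator subgroup does not normalise `F[J]`. -/
def StProper : Prop :=
  ∀ {ι : Type} [Fintype ι] [DecidableEq ι] {F : Type u} [Field F] [Fintype F]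
    (Q : QuadraticForm F (ι → F)) (J : (ι → F) →ₗ[F] (ι → F)) (t N : F), Ctx Q J t N →
    ∃ g ∈ commutator ↥(Cfsg.isometryGroup F (⇑Q)), ¬ Nrm Q J g

/-- GU-TAU: the Siegel element at `(u, J u)` commutes with `J`. -/
def StTau : Prop :=
  ∀ {ι : Type} [Fintype ι] [DecidableEq ι] {F : Type u} [Field F] [Fintype F]
    (Q : QuadraticForm F (ι → F)) (J : (ι → F) →ₗ[F] (ι → F)) (t N : F), Ctx Q J t N →
    ∀ (u : ι → F) (hu : Q u = 0) (hJu : Q (J u) = 0)
      (h : QuadraticMap.polar (⇑Q) u (J u) = 0) (c : F) (x : ι → F),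
      act (siegelG Q u (J u) hu hJu h c) (J x) = J (act (siegelG Q u (J u) hu hJu h c) x)

/-- GU-EXTA: a two-dimensional field subalgebra is `F[J]` with `J` a root of an irreducible
quadratic. -/
def StExtA : Prop :=
  ∀ {n : ℕ} {F : Type u} [Field F] (K : Subalgebra F (Matrix (Fin n) (Fin n) F)),
    Cfsg.Geo.IsFieldSubalgebra 2 K →
    ∃ (Jm : Matrix (Fin n) (Fin n) F) (t N : F),
      (∀ k : Matrix (Fin n) (Fin n) F, k ∈ K ↔
        ∃ a b : F, k = a • Jm + b • (1 : Matrix (Fin n) (Fin n) F)) ∧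
      Jm * Jm = t • Jm - N • (1 : Matrix (Fin n) (Fin n) F) ∧
      (∀ a : F, a * a - t * a + N ≠ 0) ∧
      (∀ a : F, Jm ≠ a • (1 : Matrix (Fin n) (Fin n) F))

/-- GU-EXTB: the adjoint of `J` is `t - J`, and `J` scales `Q` by `N`. -/
def StExtB : Prop :=
  ∀ {n : ℕ} {F : Type u} [Field F] (Q : (Fin n → F) → F),
    Cfsg.Geo.IsNondegenerateQuadraticForm Q →
    ∀ (K : Subalgebra F (Matrix (Fin n) (Fin n) F)) (Jm : Matrix (Fin n) (Fin n) F) (t N : F),
      (∀ k : Matrix (Fin n) (Fin n) F, k ∈ K ↔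
        ∃ a b : F, k = a • Jm + b • (1 : Matrix (Fin n) (Fin n) F)) →
      Jm * Jm = t • Jm - N • (1 : Matrix (Fin n) (Fin n) F) →
      (∀ a : F, a * a - t * a + N ≠ 0) →
      (∀ a : F, Jm ≠ a • (1 : Matrix (Fin n) (Fin n) F)) →
      Cfsg.Geo.IsFieldSubalgebra 2 K →
      Cfsg.Geo.IsAdjointClosedFor (QuadraticMap.polar Q) K →
      ¬ Cfsg.Geo.IsSelfAdjointFor (QuadraticMap.polar Q) K →
      (∀ k ∈ K, ∃ c : F, ∀ v : Fin n → F, Q (k *ᵥ v) = c * Q v) →
      (∀ x y : Fin n → F, QuadraticMap.polar Q (Jm *ᵥ x) y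
        = t * QuadraticMap.polar Q x y - QuadraticMap.polar Q x (Jm *ᵥ y)) ∧
      (∀ x : Fin n → F, Q (Jm *ᵥ x) = N * Q x) ∧
      (∀ x : Fin n → F, QuadraticMap.polar Q x (Jm *ᵥ x) = t * Q x)

/-- GU-NORM: the normaliser of `F[J]` in matrix terms. -/
def StNormG : Prop :=
  ∀ {n : ℕ} {F : Type u} [Field F] (K : Subalgebra F (Matrix (Fin n) (Fin n) F))
    (Jm : Matrix (Fin n) (Fin n) F),
    (∀ k : Matrix (Fin n) (Fin n) F, k ∈ K ↔
      ∃ a b : F, k = a • Jm + b • (1 : Matrix (Fin n) (Fin n) F)) →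
    (∀ a : F, Jm ≠ a • (1 : Matrix (Fin n) (Fin n) F)) →
    ∀ g : Matrix.GeneralLinearGroup (Fin n) F,
      g ∈ Cfsg.Geo.subalgebraNormalizer K ↔
        ∃ a b : F, (g : Matrix (Fin n) (Fin n) F) * Jm
          = (a • Jm + b • (1 : Matrix (Fin n) (Fin n) F)) * (g : Matrix (Fin n) (Fin n) F)

end Cfsg.Agent.H96.Gu
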