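import Cfsg.Agent.H96.GuDefs

set_option autoImplicit false
set_option linter.unusedSectionVars false

/-! helper96: assembly of the abstract dichotomy for S5700 from the piece statements. -/

namespace Cfsg.Agent.H96.Gu

open Module Matrix Cfsg.Agent.H49 Cfsg.Agent.H95

universe u

/-- The abstract dichotomy: a subgroup of the isometry group containing the Siegel elements
at `(u, J u)` either normalises `F[J]` or contains the commutator subgroup. -/
theorem main (hFT : StFT.{u}) (hFull1 : StFull1.{u}) (hHperp : StHperp.{u})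
    (hProp : StProp.{u}) (hV : StV.{u}) (hVI : StVI.{u})
    {ι : Type} [Fintype ι] [DecidableEq ι] {F : Type u} [Field F] [Fintype F]
    (Q : QuadraticForm F (ι → F)) (J : (ι → F) →ₗ[F] (ι → F)) (t N : F) (C : Ctx Q J t N)
    (M : Subgroup ↥(Cfsg.isometryGroup F (⇑Q))) (hM : HasTau Q J M) :
    (∀ m ∈ M, Nrm Q J m) ∨ commutator ↥(Cfsg.isometryGroup F (⇑Q)) ≤ M := by
  by_cases hall : ∀ m ∈ M, Nrm Q J m
  · exact Or.inl hall
  right
  push Not at hall
  obtain ⟨g, hg, hgn⟩ := hall
  -- a singular vector whose line is not mapped to a line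
  have h1 : ∃ z : ι → F, Q z = 0 ∧
      ∀ a b : F, act g (J z) ≠ a • act g z + b • J (act g z) := by
    by_contra hcon
    push Not at hcon
    exact hgn (hFT Q J t N C g hcon)
  obtain ⟨z, hz, hzn⟩ := h1
  have hz0 : z ≠ 0 := by
    rintro rfl
    apply hzn 0 0
    rw [map_zero, act_zero]
    simp
  have hu0 : act g z ≠ 0 := act_ne_zero g hz0
  have hu : Q (act g z) = 0 := by rw [Q_act]; exact hz
  have hy : Q (act g (J z)) = 0 := by rw [Q_act]; exact C.sing_J hz
  have hD : eichDir Q M (act g z) (act g (J z)) := eichDir_conj Q M z (J z) hg (hM z hz)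
  have hnK : ¬ inK J (act g z) (act g (J z)) := by
    rintro ⟨a, b, hab⟩
    exact hzn a b hab
  -- a full point gives everything
  have hfull : ∀ v y : ι → F, v ≠ 0 → Q v = 0 → eichDir Q M v y →
      QuadraticMap.polar (⇑Q) v (J y) ≠ 0 → commutator ↥(Cfsg.isometryGroup F (⇑Q)) ≤ M := by
    intro v y hv0 hv hvy hne
    exact hVI Q J t N C M hM v hv0 hv (hFull1 Q J t N C M hM v y hv0 hv hvy hne)
  by_cases hc : QuadraticMap.polar (⇑Q) (act g z) (J (act g (J z))) = 0
  · have hhp : hp Q J (act g (J z)) (act g z) := by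
      refine ⟨by rw [QuadraticMap.polar_comm]; exact hD.1, ?_⟩
      rw [QuadraticMap.polar_comm, C.adj, hD.1, hc]
      ring
    have hPH : PH Q J M (act g z) := hHperp Q J t N C M hM _ _ hu0 hu hy hD hhp hnK
    have hPHall : ∀ v : ι → F, v ≠ 0 → Q v = 0 → PH Q J M v :=
      fun v hv0 hv => hProp Q J t N C M hM _ hu0 hu hPH v hv0 hv
    by_cases h0 : ∀ v y : ι → F, v ≠ 0 → Q v = 0 → eichDir Q M v y →
        QuadraticMap.polar (⇑Q) v (J y) = 0
    · exact absurd (hV Q J t N C M hM hPHall h0 g hg) hgn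
    · push Not at h0
      obtain ⟨v, y, hv0, hv, hvy, hne⟩ := h0
      exact hfull v y hv0 hv hvy hne
  · exact hfull _ _ hu0 hu hD hc

end Cfsg.Agent.H96.Gu
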