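import Cfsg.Agent.H96.GuMain
import Cfsg.Agent.H95.QF

set_option autoImplicit false
set_option linter.unusedSectionVars false

/-! helper96: the S5700 statement from the piece statements (glue between the matrix-level
hypotheses and the abstract dichotomy). -/

namespace Cfsg.Agent.H96.Gu

open Module Matrix Cfsg Cfsg.Geo Cfsg.Agent.H49 Cfsg.Agent.H95
open scoped MatrixGroups

universe u

/-- Maximality for a bundled form and an explicit generator `Jm` of the field subalgebra. -/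
theorem top_gen (hNormG : StNormG.{u}) (hTau : StTau.{u}) (hProper : StProper.{u})
    (hFT : StFT.{u}) (hFull1 : StFull1.{u}) (hHperp : StHperp.{u})
    (hProp : StProp.{u}) (hV : StV.{u}) (hVI : StVI.{u})
    {F : Type u} [Field F] [Fintype F] {n : ℕ} (Q : QuadraticForm F (Fin n → F))
    (nd : (QuadraticMap.polarBilin Q).Nondegenerate) (ts : HasTS3 Q) (hn : 14 ≤ n)
    (K : Subalgebra F (Matrix (Fin n) (Fin n) F)) (Jm : Matrix (Fin n) (Fin n) F) (t N : F)
    (hK1 : ∀ k : Matrix (Fin n) (Fin n) F, k ∈ K ↔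
      ∃ a b : F, k = a • Jm + b • (1 : Matrix (Fin n) (Fin n) F))
    (hsq : Jm * Jm = t • Jm - N • (1 : Matrix (Fin n) (Fin n) F))
    (hirr : ∀ a : F, a * a - t * a + N ≠ 0)
    (hns : ∀ a : F, Jm ≠ a • (1 : Matrix (Fin n) (Fin n) F))
    (hadj : ∀ x y : Fin n → F, QuadraticMap.polar (⇑Q) (Jm *ᵥ x) y
        = t * QuadraticMap.polar (⇑Q) x y - QuadraticMap.polar (⇑Q) x (Jm *ᵥ y))
    (hqJ : ∀ x : Fin n → F, Q (Jm *ᵥ x) = N * Q x)
    (hbJ : ∀ x : Fin n → F, QuadraticMap.polar (⇑Q) x (Jm *ᵥ x) = t * Q x) :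
    IsMaximalIn (omegaGL (⇑Q)) (subalgebraNormalizer K ⊓ omegaGL (⇑Q)) := by
  classical
  obtain ⟨J, hJ⟩ : ∃ J : (Fin n → F) →ₗ[F] (Fin n → F), ∀ x, J x = Jm *ᵥ x :=
    ⟨Matrix.mulVecLin Jm, fun x => rfl⟩
  have C : Ctx Q J t N :=
    { nd := nd
      ts := ts
      dim := by rw [Fintype.card_fin]; exact hn
      sq := fun x => by
        rw [hJ, hJ, Matrix.mulVec_mulVec, hsq, Matrix.sub_mulVec, Matrix.smul_mulVec,
          Matrix.smul_mulVec, Matrix.one_mulVec]
      irr := hirr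
      adj := fun x y => by rw [hJ, hJ]; exact hadj x y
      qJ := fun x => by rw [hJ]; exact hqJ x
      bJ := fun x => by rw [hJ]; exact hbJ x }
  -- `Nrm` is membership in the normaliser
  have hNrm : ∀ g : ↥(Cfsg.isometryGroup F (⇑Q)),
      Nrm Q J g ↔ (g : GL (Fin n) F) ∈ subalgebraNormalizer K := by
    intro g
    rw [hNormG K Jm hK1 hns]
    constructor
    · rintro ⟨a, b, h⟩
      refine ⟨b, a, ?_⟩
      apply Matrix.toLin'.injective
      apply LinearMap.ext
      intro x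
      have hx := h x
      rw [hJ, hJ] at hx
      rw [Matrix.toLin'_apply, Matrix.toLin'_apply, ← Matrix.mulVec_mulVec,
        ← Matrix.mulVec_mulVec, Matrix.add_mulVec, Matrix.smul_mulVec, Matrix.smul_mulVec,
        Matrix.one_mulVec, add_comm]
      exact hx
    · rintro ⟨a, b, h⟩
      refine ⟨b, a, fun x => ?_⟩
      rw [hJ, hJ]
      show ((g : GL (Fin n) F) : Matrix (Fin n) (Fin n) F) *ᵥ (Jm *ᵥ x)
        = b • (((g : GL (Fin n) F) : Matrix (Fin n) (Fin n) F) *ᵥ x)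
          + a • (Jm *ᵥ (((g : GL (Fin n) F) : Matrix (Fin n) (Fin n) F) *ᵥ x))
      rw [Matrix.mulVec_mulVec, h, ← Matrix.mulVec_mulVec, Matrix.add_mulVec,
        Matrix.smul_mulVec, Matrix.smul_mulVec, Matrix.one_mulVec, add_comm]
  constructor
  · refine lt_of_le_of_ne inf_le_right ?_
    intro heq
    obtain ⟨g, hg, hgn⟩ := hProper Q J t N C
    have h1 : (g : GL (Fin n) F) ∈ omegaGL (⇑Q) := ⟨g, hg, rfl⟩
    rw [← heq] at h1
    exact hgn ((hNrm g).mpr h1.1)
  · intro M hHM hMΩ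
    have hM : HasTau Q J (M.comap (Cfsg.isometryGroup F (⇑Q)).subtype) := by
      intro u hu
      have hJu : Q (J u) = 0 := C.sing_J hu
      have huJu : QuadraticMap.polar (⇑Q) u (J u) = 0 := C.pol_self_J hu
      apply eichDir_of_siegel Q _ u (J u) hu hJu huJu
      intro c
      show ((siegelG Q u (J u) hu hJu huJu c : ↥(Cfsg.isometryGroup F (⇑Q))) : GL (Fin n) F) ∈ M
      apply hHM
      refine ⟨?_, ⟨_, siegelG_mem_commutator Q nd ts u (J u) hu hJu huJu c, rfl⟩⟩
      apply (hNrm _).mp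
      refine ⟨0, 1, fun x => ?_⟩
      rw [hTau Q J t N C u hu hJu huJu c x]
      simp
    rcases main hFT hFull1 hHperp hProp hV hVI Q J t N C _ hM with hall | hcomm
    · left
      apply le_antisymm _ hHM
      intro g hg
      obtain ⟨g', hg', rfl⟩ := hMΩ hg
      exact ⟨(hNrm g').mp (hall g' hg), ⟨g', hg', rfl⟩⟩
    · right
      apply le_antisymm hMΩ
      rintro g ⟨g', hg', rfl⟩
      exact hcomm hg'

/-- The S5700 statement from the pieces. -/
theorem top (hExtA : StExtA.{u}) (hExtB : StExtB.{u}) (hNormG : StNormG.{u})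
    (hTau : StTau.{u}) (hProper : StProper.{u})
    (hFT : StFT.{u}) (hFull1 : StFull1.{u}) (hHperp : StHperp.{u})
    (hProp : StProp.{u}) (hV : StV.{u}) (hVI : StVI.{u})
    {F : Type u} [Field F] [Fintype F] {n : ℕ} (hn : 13 ≤ n) (heven : Even n)
    (Q : (Fin n → F) → F) (hQ : IsNondegenerateQuadraticForm Q)
    (K : Subalgebra F (Matrix (Fin n) (Fin n) F)) (hK : IsFieldSubalgebra 2 K)
    (hac : IsAdjointClosedFor (QuadraticMap.polar Q) K)
    (hnsa : ¬ IsSelfAdjointFor (QuadraticMap.polar Q) K)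
    (hsc : ∀ k ∈ K, ∃ c : F, ∀ v : (Fin n → F), Q (Matrix.mulVec k v) = c * Q v) :
    IsMaximalIn (omegaGL Q) (subalgebraNormalizer K ⊓ omegaGL Q) := by
  obtain ⟨Jm, t, N, hK1, hsq, hirr, hns⟩ := hExtA K hK
  obtain ⟨hadj, hqJ, hbJ⟩ := hExtB Q hQ K Jm t N hK1 hsq hirr hns hK hac hnsa hsc
  have hn14 : 14 ≤ n := by
    obtain ⟨k, hk⟩ := heven
    omega
  have nd := toQF_nondeg hQ
  have hdimV : finrank F (Fin n → F) = n := Module.finrank_fin_fun F
  have ts := hasTS3_of_finrank (toQF Q hQ) nd (by rw [hdimV]; omega)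
  exact top_gen hNormG hTau hProper hFT hFull1 hHperp hProp hV hVI (toQF Q hQ) nd ts hn14 K Jm
    t N hK1 hsq hirr hns hadj hqJ hbJ

end Cfsg.Agent.H96.Gu
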