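import Cfsg.Agent.H46.OutGDefs

/-!
# OG-SINN (helper96, for helper46's S2121 / S2122 project)

The inner automorphisms preserving `U` and `V` are the conjugations by `H` (adapted from helper39's
`H39/OutTInn.lean`).
-/

set_option autoImplicit false

namespace Cfsg.Agent.H96.OutG

open Cfsg.Lie Cfsg.Agent.H23 Cfsg.Agent.H23.Stb Cfsg.Agent.H46.OutE Cfsg.Agent.H46.OutG

universe u

variable {D : ChevalleyDatum} {F : Type u} [Field F] {z η : ℕ → ℕ → ℤ}

/-- Conjugation by an element of `H` lies in `autS`. -/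
theorem conj_mem_autS (hS : Sem D F z) (h : GL D.Idx F) (hh : h ∈ D.diagonalSubgroup F) :
    MulAut.conj (⟨h, diagonal_le_group hS hh⟩ : ↥(D.group F)) ∈ autS D F := by
  have key : ∀ (P : ℕ → Prop), (∀ r, P r → r < D.nroots) →
      Pres (MulAut.conj (⟨h, diagonal_le_group hS hh⟩ : ↥(D.group F))) (rootGen D F P)
        (rootGen D F P) := by
    intro P hP g
    have hn := diagonal_le_normalizer_rootGen hS P hP hh
    exact (Subgroup.mem_normalizer_iff.mp hn (g : GL D.Idx F)).symm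
  exact ⟨key D.IsPosRoot (fun _ hr => hr.1), key D.IsNegRoot (fun _ hr => hr.1)⟩

/-- An inner automorphism preserving `K ≤ G` comes from an element normalising `K` in `GL`. -/
theorem norm_of_pres (g : ↥(D.group F)) (K : Subgroup (GL D.Idx F)) (hK : K ≤ D.group F)
    (hpres : Pres (MulAut.conj g) K K) :
    ∀ x : GL D.Idx F, x ∈ K ↔ g.1 * x * g.1⁻¹ ∈ K := by
  intro x
  constructor
  · intro hx
    exact (hpres ⟨x, hK hx⟩).mpr hx
  · intro hx
    have hxG : x ∈ D.group F := by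
      have h1 := hK hx
      have h2 : x = g.1⁻¹ * (g.1 * x * g.1⁻¹) * g.1 := by group
      rw [h2]
      exact mul_mem (mul_mem (inv_mem g.2) h1) g.2
    exact (hpres ⟨x, hxG⟩).mp hx

/-- **OG-SINN**. -/
theorem sInn (h : Cfsg.Agent.H78.StbG.StNUV.{u}) : StSInn.{u} := by
  intro D F _ z η rT w0 hC
  classical
  have hP := hC.hP
  let f : ↥(D.diagonalSubgroup F) → ↥(autS D F ⊓ Cfsg.Inn ↥(D.group F)) := fun k =>
    ⟨MulAut.conj (⟨k.1, diagonal_le_group hP.sem k.2⟩ : ↥(D.group F)),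
      conj_mem_autS hP.sem k.1 k.2, ⟨_, rfl⟩⟩
  have hinj : Function.Injective f := by
    intro a b hab
    have hab' : MulAut.conj (⟨a.1, diagonal_le_group hP.sem a.2⟩ : ↥(D.group F)) =
        MulAut.conj (⟨b.1, diagonal_le_group hP.sem b.2⟩ : ↥(D.group F)) :=
      congrArg Subtype.val hab
    have hm : a.1⁻¹ * b.1 ∈ D.diagonalSubgroup F := mul_mem (inv_mem a.2) b.2
    obtain ⟨χ, hχ⟩ := diagonal_le_torus hP.sem hP.tab hm
    have hone : ∀ s < D.nroots, χ s = 1 := by
      intro s hs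
      have e1 := congrArg (fun θ : MulAut ↥(D.group F) =>
        ((θ (xG hP.sem s 1) : ↥(D.group F)) : GL D.Idx F)) hab'
      have e2 : a.1 * xU hP.sem s 1 * a.1⁻¹ = b.1 * xU hP.sem s 1 * b.1⁻¹ := e1
      have e3 := isTorus_conj hP.sem χ _ hχ s hs 1
      have e4 : a.1⁻¹ * b.1 * xU hP.sem s 1 * (a.1⁻¹ * b.1)⁻¹ = xU hP.sem s 1 := by
        rw [mul_inv_rev, inv_inv]
        calc a.1⁻¹ * b.1 * xU hP.sem s 1 * (b.1⁻¹ * a.1)
            = a.1⁻¹ * (b.1 * xU hP.sem s 1 * b.1⁻¹) * a.1 := by group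
          _ = a.1⁻¹ * (a.1 * xU hP.sem s 1 * a.1⁻¹) * a.1 := by rw [e2]
          _ = xU hP.sem s 1 := by group
      rw [e4] at e3
      have e5 := xU_inj hP s hs _ _ e3
      rw [mul_one] at e5
      exact e5.symm
    have h1 := isTorus_eq_one χ _ hχ hone
    apply Subtype.ext
    exact inv_mul_eq_one.1 h1
  have hsurj : Function.Surjective f := by
    rintro ⟨θ, hθS, g, rfl⟩
    have hθS' : Pres (MulAut.conj g) (D.posUnipotent F) (D.posUnipotent F) ∧
        Pres (MulAut.conj g) (D.negUnipotent F) (D.negUnipotent F) := hθS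
    have hg : (g : GL D.Idx F) ∈ D.diagonalSubgroup F :=
      h D F z η rT w0 hC g.1 g.2
        (norm_of_pres g _ (posUnipotent_le_group hP.sem) hθS'.1)
        (norm_of_pres g _ (negUnipotent_le_group hP.sem) hθS'.2)
    refine ⟨⟨g.1, hg⟩, ?_⟩
    apply Subtype.ext
    rfl
  exact (Nat.card_congr (Equiv.ofBijective f ⟨hinj, hsurj⟩)).symm

example (h : Cfsg.Agent.H78.StbG.StNUV.{u}) : Cfsg.Agent.H46.OutG.StSInn.{u} := sInn h

end Cfsg.Agent.H96.OutG

#print axioms Cfsg.Agent.H96.OutG.sInn
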