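import Cfsg.Agent.H13.D4Comm
import Cfsg.Agent.H61.D4Field
import Cfsg.Agent.H65.RingAutZMod
import Cfsg.Agent.H49.D4DiagInn
import Cfsg.Agent.H78.SdD4

set_option autoImplicit false

/-! helper96: the `m = 4` half of S2607, `Out(D₄(2^f)) ≅ S₃ × C_f`.

Abstract glue: if the automorphism group is `Inn · S · T` for two elementwise commuting subgroups
`S`, `T` and no non-trivial product `g φ` (`g ∈ S`, `φ ∈ T`) is inner, then `Out ≅ S × T`.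
It is applied to the graph automorphisms (helper13: `d4_graph_hom`, `d4_notInn`,
`d4_graph_field_commute`), the field automorphisms (helper61: `d4_field_hom`; helper65:
`ringAut_zmod`), the decomposition of helper78 / helper23 (`sdType_D4`) and the fact that the
diagonal automorphisms are inner in characteristic 2 (helper49: `d4_dec_of`). -/

namespace Cfsg.Agent.H96.OD4

open Cfsg Cfsg.Lie

universe u

/-- The abstract glue. -/
theorem out_prod {G : Type u} [Group G] (S T : Subgroup (MulAut G))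
    (h1 : ∀ θ : MulAut G, ∃ i ∈ Cfsg.Inn G, ∃ g ∈ S, ∃ φ ∈ T, θ = i * g * φ)
    (h2 : ∀ g ∈ S, ∀ φ ∈ T, g * φ ∈ Cfsg.Inn G → g = 1 ∧ φ = 1)
    (h4 : ∀ g ∈ S, ∀ φ ∈ T, g * φ = φ * g) :
    Nonempty (Cfsg.Out G ≃* ↥S × ↥T) := by
  let Φ : ↥S × ↥T →* Cfsg.Out G := MonoidHom.mk'
    (fun p => (QuotientGroup.mk ((p.1 : MulAut G) * (p.2 : MulAut G)) : Cfsg.Out G))
    (by
      rintro ⟨⟨g₁, hg₁⟩, ⟨φ₁, hφ₁⟩⟩ ⟨⟨g₂, hg₂⟩, ⟨φ₂, hφ₂⟩⟩
      show (QuotientGroup.mk ((g₁ * g₂) * (φ₁ * φ₂)) : Cfsg.Out G)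
        = QuotientGroup.mk (g₁ * φ₁) * QuotientGroup.mk (g₂ * φ₂)
      rw [← QuotientGroup.mk_mul]
      congr 1
      have hc := h4 g₂ hg₂ φ₁ hφ₁
      calc g₁ * g₂ * (φ₁ * φ₂) = g₁ * (g₂ * φ₁) * φ₂ := by group
        _ = g₁ * (φ₁ * g₂) * φ₂ := by rw [hc]
        _ = g₁ * φ₁ * (g₂ * φ₂) := by group)
  have hinj : Function.Injective Φ := by
    rw [injective_iff_map_eq_one]
    rintro ⟨⟨g, hg⟩, ⟨φ, hφ⟩⟩ hp
    have hmem : g * φ ∈ Cfsg.Inn G := (QuotientGroup.eq_one_iff (g * φ)).mp hp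
    obtain ⟨e1, e2⟩ := h2 g hg φ hφ hmem
    subst e1 e2
    rfl
  have hsurj : Function.Surjective Φ := by
    intro q
    obtain ⟨θ, rfl⟩ := QuotientGroup.mk_surjective q
    obtain ⟨i, hi, g, hg, φ, hφ, rfl⟩ := h1 θ
    refine ⟨(⟨g, hg⟩, ⟨φ, hφ⟩), ?_⟩
    have e1 : (QuotientGroup.mk (i * g * φ) : Cfsg.Out G)
        = QuotientGroup.mk i * QuotientGroup.mk (g * φ) := by
      rw [← QuotientGroup.mk_mul, mul_assoc]
    have e2 : (QuotientGroup.mk i : Cfsg.Out G) = 1 := (QuotientGroup.eq_one_iff i).mpr hi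
    show (QuotientGroup.mk (g * φ) : Cfsg.Out G) = QuotientGroup.mk (i * g * φ)
    rw [e1, e2, one_mul]
  exact ⟨(MulEquiv.ofBijective Φ ⟨hinj, hsurj⟩).symm⟩

/-- `Out(D₄(2^f)) ≅ S₃ × C_f`. -/
theorem out_d4_two (F : Type u) [Field F] [Fintype F] (f : ℕ) (hf : 1 ≤ f)
    (hF : Fintype.card F = 2 ^ f) :
    Nonempty (Cfsg.Out ↥(chevD4.group F) ≃* Equiv.Perm (Fin 3) × Multiplicative (ZMod f)) := by
  haveI : CharP F 2 := by
    have h2 : (2 : F) = 0 := by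
      have h0 : ((Fintype.card F : ℕ) : F) = 0 := Nat.cast_card_eq_zero F
      rw [hF] at h0
      push_cast at h0
      exact pow_eq_zero_iff (by omega) |>.mp h0
    exact CharTwo.of_one_ne_zero_of_two_eq_zero one_ne_zero h2
  obtain ⟨Φ, hΦi, hΦ⟩ := Cfsg.Agent.H13.D4N.d4_graph_hom F
  obtain ⟨Ψ, hΨi, hΨ⟩ := Cfsg.Agent.H61.D4F.d4_field_hom F
  have h1 : ∀ θ : MulAut ↥(chevD4.group F), ∃ i ∈ Cfsg.Inn ↥(chevD4.group F),
      ∃ g ∈ Φ.range, ∃ φ ∈ Ψ.range, θ = i * g * φ := by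
    intro θ
    obtain ⟨x, g, φ, hg, hφ, h⟩ := Cfsg.Agent.H49.D4.d4_dec_of F
      (fun θ => Cfsg.Agent.H78.Sd.sdType_D4 F θ) θ
    refine ⟨MulAut.conj x, ⟨x, rfl⟩, g, (hΦ g).mp hg, φ, (hΨ φ).mp hφ, ?_⟩
    apply MulEquiv.ext
    intro y
    rw [h y]
    rfl
  have h2 : ∀ g ∈ Φ.range, ∀ φ ∈ Ψ.range, g * φ ∈ Cfsg.Inn ↥(chevD4.group F) → g = 1 ∧ φ = 1 := by
    intro g hg φ hφ hin
    obtain ⟨x, hx⟩ := hin
    exact Cfsg.Agent.H13.D4N.d4_notInn F g φ ((hΦ g).mpr hg) ((hΨ φ).mpr hφ) x (fun y => by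
      have := DFunLike.congr_fun hx y
      exact this.symm)
  have h4 : ∀ g ∈ Φ.range, ∀ φ ∈ Ψ.range, g * φ = φ * g := fun g hg φ hφ =>
    Cfsg.Agent.H13.D4N.d4_graph_field_commute F g φ ((hΦ g).mpr hg) ((hΨ φ).mpr hφ)
  obtain ⟨e⟩ := out_prod Φ.range Ψ.range h1 h2 h4
  obtain ⟨eZ⟩ := Cfsg.Agent.H65.D4P.ringAut_zmod F f (by rw [Nat.card_eq_fintype_card]; exact hF)
  exact ⟨e.trans (MulEquiv.prodCongr (MonoidHom.ofInjective hΦi).symm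
    ((MonoidHom.ofInjective hΨi).symm.trans eZ))⟩

end Cfsg.Agent.H96.OD4
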