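import Cfsg.Agent.H22.ReeGen
import Cfsg.Agent.H22.ReeSyl
import Cfsg.Agent.H96.RoDefs

/-!
# S2127 (helper96): the Ree datum of `twistedG2 K (3^m)` from helper22's Ree library
-/

set_option autoImplicit false
set_option linter.unusedSectionVars false

namespace Cfsg.Agent.H96.Ro

open Cfsg Cfsg.Lie Cfsg.Agent.H22 Cfsg.Agent.H22.Ree

universe u

section

variable {K : Type u} [Field K] [CharP K 3] [Fintype K] {m : ℕ} (C : Ctx K (3 ^ m))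

/-- the Ree word as an element of the twisted group -/
def RG (t u v : K) : ↥(twistedG2 K (3 ^ m)) :=
  ⟨(C.SP.R C.τ t u v : GL chevG2.Idx K), C.RP_mem t u v⟩

/-- the Weyl element as an element of the twisted group -/
def wG : ↥(twistedG2 K (3 ^ m)) := ⟨(C.n0 : GL chevG2.Idx K), C.n0_mem⟩

omit [Fintype K] in
theorem RG_coe (t u v : K) :
    ((RG C t u v : ↥(twistedG2 K (3 ^ m))) : GL chevG2.Idx K) =
      (C.SP.R C.τ t u v : GL chevG2.Idx K) := rfl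

omit [Fintype K] in
theorem wG_coe : ((wG C : ↥(twistedG2 K (3 ^ m))) : GL chevG2.Idx K) =
    (C.n0 : GL chevG2.Idx K) := rfl

omit [Fintype K] in
theorem tau_cube (t : K) : C.τ t ^ 3 = t ^ 3 ^ (m + 1) := by
  rw [C.τ_eq, ← pow_mul, ← pow_succ]

omit [Fintype K] in
theorem RG_mul (t u v t' u' v' : K) :
    RG C t u v * RG C t' u' v' =
      RG C (t + t') (u + u' - t' ^ 3 ^ (m + 1) * t)
        (v + v' - t' * u + t' ^ 3 ^ (m + 1) * t * t' - t' ^ 3 ^ (m + 1) * t ^ 2) := by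
  have h := C.R_mul t u v t' u' v'
  rw [tau_cube] at h
  apply Subtype.ext
  rw [Subgroup.coe_mul, RG_coe, RG_coe, RG_coe, ← Subgroup.coe_mul, h]

omit [Fintype K] in
theorem RG_inj (t u v t' u' v' : K) (h : RG C t u v = RG C t' u' v') :
    t = t' ∧ u = u' ∧ v = v' := by
  have h1 := congrArg (fun z : ↥(twistedG2 K (3 ^ m)) => (z : GL chevG2.Idx K)) h
  simp only [RG_coe] at h1
  have h2 : C.SP.R C.τ t u v = C.SP.R C.τ t' u' v' := Subtype.ext h1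
  exact USys.R_inj (signs_pos K C.θ) C.τ C.E_inj t u v t' u' v' h2

omit [Fintype K] in
theorem RG_zero : RG C 0 0 0 = 1 := by
  apply Subtype.ext
  rw [RG_coe, C.R_zero]
  rfl

omit [Fintype K] in
/-- elements of `U ∩ ²G₂` are Ree words -/
theorem exists_RG (x : ↥(twistedG2 K (3 ^ m)))
    (hx : (x : GL chevG2.Idx K) ∈ chevG2.posUnipotent K) : ∃ t u v : K, x = RG C t u v := by
  obtain ⟨⟨t, u, v⟩, hq⟩ := C.reeEl_bij.2 ⟨(x : GL chevG2.Idx K), hx, x.2⟩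
  refine ⟨t, u, v, Subtype.ext ?_⟩
  have h1 := congrArg (fun z : ↥(chevG2.posUnipotent K ⊓ twistedG2 K (3 ^ m)) =>
    (z : GL chevG2.Idx K)) hq
  rw [RG_coe]
  exact h1.symm

omit [Fintype K] in
theorem RG_mem_U (t u v : K) : ((RG C t u v : ↥(twistedG2 K (3 ^ m))) : GL chevG2.Idx K) ∈
    chevG2.posUnipotent K :=
  by
  rw [RG_coe]
  exact (C.reeEl (t, u, v)).2.1

/-! ### the torus -/

/-- the torus element with character value `κ` on the root `b` -/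
def hG (hK : Fintype.card K = 3 ^ (2 * m + 1)) (κ : Kˣ) : ↥(twistedG2 K (3 ^ m)) :=
  ⟨C.eta (κ ^ (3 ^ (m + 1) + 2)), by
    rw [C.eta_apply]
    exact C.hh_mem hK _ (Units.ne_zero _)⟩

theorem hG_eta (hK : Fintype.card K = 3 ^ (2 * m + 1)) (κ : Kˣ) :
    ((hG C hK κ : ↥(twistedG2 K (3 ^ m))) : GL chevG2.Idx K) =
      C.eta (κ ^ (3 ^ (m + 1) + 2)) := rfl

theorem hG_coe (hK : Fintype.card K = 3 ^ (2 * m + 1)) (κ : Kˣ) :
    ((hG C hK κ : ↥(twistedG2 K (3 ^ m))) : GL chevG2.Idx K) =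
      (C.hh (C.τ ((κ : K) ^ (3 ^ (m + 1) + 2))) ((κ : K) ^ (3 ^ (m + 1) + 2)) :
        GL chevG2.Idx K) := by
  rw [hG_eta, C.eta_apply, Units.val_pow_eq_pow_val]

theorem hG_mul (hK : Fintype.card K = 3 ^ (2 * m + 1)) (a b : Kˣ) :
    hG C hK (a * b) = hG C hK a * hG C hK b := by
  apply Subtype.ext
  rw [Subgroup.coe_mul, hG_eta, hG_eta, hG_eta, mul_pow, map_mul]

/-- the power map `κ ↦ κ^(n+2)` is injective on units -/
theorem pw_inj (a4 : ∀ r : K, r ≠ 0 → (r⁻¹ ^ (3 ^ (m + 1) - 2)) ^ (3 ^ (m + 1) + 2) = r)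
    (a b : Kˣ) (h : a ^ (3 ^ (m + 1) + 2) = b ^ (3 ^ (m + 1) + 2)) : a = b := by
  have key : ∀ r : K, r ≠ 0 → r = ((r ^ (3 ^ (m + 1) + 2))⁻¹) ^ (3 ^ (m + 1) - 2) := by
    intro r hr
    conv_lhs => rw [← a4 r hr]
    rw [← pow_mul, inv_pow, inv_pow, ← pow_mul, mul_comm]
  apply Units.ext
  have h' : (a : K) ^ (3 ^ (m + 1) + 2) = (b : K) ^ (3 ^ (m + 1) + 2) := by
    rw [← Units.val_pow_eq_pow_val, ← Units.val_pow_eq_pow_val, h]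
  rw [key (a : K) a.ne_zero, key (b : K) b.ne_zero, h']

/-- the power map `κ ↦ κ^(n+2)` is surjective on units -/
theorem pw_surj (a4 : ∀ r : K, r ≠ 0 → (r⁻¹ ^ (3 ^ (m + 1) - 2)) ^ (3 ^ (m + 1) + 2) = r)
    (s : Kˣ) : ∃ κ : Kˣ, κ ^ (3 ^ (m + 1) + 2) = s := by
  refine ⟨s⁻¹ ^ (3 ^ (m + 1) - 2), Units.ext ?_⟩
  rw [Units.val_pow_eq_pow_val, Units.val_pow_eq_pow_val, Units.val_inv_eq_inv_val]
  exact a4 (s : K) s.ne_zero

theorem hG_inj (hK : Fintype.card K = 3 ^ (2 * m + 1))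
    (a4 : ∀ r : K, r ≠ 0 → (r⁻¹ ^ (3 ^ (m + 1) - 2)) ^ (3 ^ (m + 1) + 2) = r) :
    Function.Injective (hG C hK) := by
  intro a b h
  have h1 := congrArg (fun z : ↥(twistedG2 K (3 ^ m)) => (z : GL chevG2.Idx K)) h
  simp only [hG_eta] at h1
  exact pw_inj a4 a b (C.eta_injective h1)

theorem hG_one (hK : Fintype.card K = 3 ^ (2 * m + 1)) : hG C hK 1 = 1 := by
  have h := hG_mul C hK 1 1
  rw [mul_one] at h
  exact (mul_eq_left.mp h.symm)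

/-- elements of `H ∩ ²G₂` are torus elements -/
theorem exists_hG (hK : Fintype.card K = 3 ^ (2 * m + 1))
    (a4 : ∀ r : K, r ≠ 0 → (r⁻¹ ^ (3 ^ (m + 1) - 2)) ^ (3 ^ (m + 1) + 2) = r)
    (x : ↥(twistedG2 K (3 ^ m)))
    (hx : (x : GL chevG2.Idx K) ∈ chevG2.diagonalSubgroup K) : ∃ κ : Kˣ, x = hG C hK κ := by
  have hx' : (x : GL chevG2.Idx K) ∈ C.eta.range := by
    rw [← C.H1_eq_range hK]
    exact ⟨hx, x.2⟩
  obtain ⟨s, hs⟩ := hx'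
  obtain ⟨κ, hκ⟩ := pw_surj a4 s
  refine ⟨κ, Subtype.ext ?_⟩
  rw [hG_eta, hκ, hs]

theorem hG_mem_H (hK : Fintype.card K = 3 ^ (2 * m + 1)) (κ : Kˣ) :
    ((hG C hK κ : ↥(twistedG2 K (3 ^ m))) : GL chevG2.Idx K) ∈ chevG2.diagonalSubgroup K := by
  rw [hG_coe]
  exact C.hh_mem_H _ _ ((map_ne_zero C.τ).mpr (pow_ne_zero _ κ.ne_zero)) (pow_ne_zero _ κ.ne_zero)

/-- conjugation of a Ree word by a torus element: weights `κ`, `κ^(n+1)`, `κ^(n+2)` -/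
theorem hG_conj (hK : Fintype.card K = 3 ^ (2 * m + 1))
    (a1 : ∀ r : K, r ^ (3 ^ (m + 1) * 3 ^ (m + 1)) = r ^ 3) (κ : Kˣ) (t u v : K) :
    hG C hK κ * RG C t u v * (hG C hK κ)⁻¹ =
      RG C ((κ : K) * t) ((κ : K) ^ (3 ^ (m + 1) + 1) * u) ((κ : K) ^ (3 ^ (m + 1) + 2) * v) := by
  obtain ⟨n, hn⟩ : ∃ n : ℕ, n = 3 ^ (m + 1) := ⟨_, rfl⟩
  rw [← hn] at a1 ⊢
  have tc : ∀ x : K, C.τ x ^ 3 = x ^ n := fun x => by rw [hn]; exact tau_cube C x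
  obtain ⟨s, hs⟩ : ∃ s : K, s = (κ : K) ^ (n + 2) := ⟨_, rfl⟩
  have hκ0 : (κ : K) ≠ 0 := κ.ne_zero
  have hs0 : s ≠ 0 := by rw [hs]; exact pow_ne_zero _ hκ0
  have hτs : C.τ s ≠ 0 := (map_ne_zero C.τ).mpr hs0
  have hsμ : s = (κ : K) ^ 2 * C.τ (κ : K) ^ 3 := by rw [tc, hs, pow_add, mul_comm]
  have c6 : chi (C.τ s) s 6 = (κ : K) := by rw [hsμ]; exact C.chi6_val (κ : K) hκ0
  have c10 : chi (C.τ s) s 10 = (κ : K) ^ (n + 1) := by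
    rw [(chi_vals _ _).2.2.2.2.1, zpow_neg_one]
    have e3 : C.τ s ^ (3 : ℤ) = s ^ n := by
      rw [← tc]; exact zpow_ofNat (C.τ s) 3
    rw [e3]
    have e4 : s ^ n = (κ : K) ^ (n + 1) * s := by
      rw [hs, ← pow_mul, ← pow_add]
      have e5 : (n + 2) * n = n * n + 2 * n := by ring
      rw [e5, pow_add, a1, ← pow_add]
      congr 1
      ring
    rw [e4, mul_assoc, mul_inv_cancel₀ hs0, mul_one]
  have c11 : chi (C.τ s) s 11 = s := by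
    rw [(chi_vals _ _).2.2.2.2.2]
    simp
  have h1 : C.hh (C.τ s) s * C.SP.R C.τ t u v * (C.hh (C.τ s) s)⁻¹ =
      C.SP.E (chi (C.τ s) s 6 * t) (chi (C.τ s) s 7 * C.τ t) (chi (C.τ s) s 8 * C.τ u)
        (chi (C.τ s) s 9 * C.τ v) (chi (C.τ s) s 10 * (u + C.τ t ^ 3 * t))
        (chi (C.τ s) s 11 * (v + C.τ t ^ 3 * t ^ 2)) := by
    rw [USys.R_eq_E (signs_pos K C.θ), C.hh_mul_E _ _ hτs hs0, mul_inv_cancel_right]
  obtain ⟨u', v', h2⟩ := C.conj_R hK s hs0 t u v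
  have h2' : ((C.hh (C.τ s) s * C.SP.R C.τ t u v * (C.hh (C.τ s) s)⁻¹ : ↥(chevG2.group K)) :
      GL chevG2.Idx K) = (C.SP.R C.τ (chi (C.τ s) s 6 * t) u' v' : GL chevG2.Idx K) := by
    rw [Subgroup.coe_mul, Subgroup.coe_mul, Subgroup.coe_inv]
    exact h2
  have h3 : C.SP.R C.τ (chi (C.τ s) s 6 * t) u' v' =
      C.SP.E (chi (C.τ s) s 6 * t) (chi (C.τ s) s 7 * C.τ t) (chi (C.τ s) s 8 * C.τ u)
        (chi (C.τ s) s 9 * C.τ v) (chi (C.τ s) s 10 * (u + C.τ t ^ 3 * t))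
        (chi (C.τ s) s 11 * (v + C.τ t ^ 3 * t ^ 2)) := by
    rw [← h1]
    exact Subtype.ext h2'.symm
  rw [USys.R_eq_E (signs_pos K C.θ)] at h3
  obtain ⟨-, -, -, -, a10, a11⟩ := C.E_inj _ _ _ _ _ _ _ _ _ _ _ _ h3
  rw [c6, c10, tc, tc] at a10
  rw [c6, c11, tc, tc] at a11
  have hu' : u' = (κ : K) ^ (n + 1) * u := by
    linear_combination a10
  have hv' : v' = (κ : K) ^ (n + 2) * v := by
    rw [hs] at a11
    linear_combination a11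
  apply Subtype.ext
  rw [Subgroup.coe_mul, Subgroup.coe_mul, Subgroup.coe_inv, hG_coe, RG_coe, RG_coe, ← hn, ← hs,
    h2, c6, hu', hv', hs]

/-! ### Bruhat decomposition and the other axioms -/

/-- elements of `B ∩ ²G₂` are products of a Ree word and a torus element -/
theorem exists_RG_hG (hK : Fintype.card K = 3 ^ (2 * m + 1)) (hcan : CanonG2 K)
    (a4 : ∀ r : K, r ≠ 0 → (r⁻¹ ^ (3 ^ (m + 1) - 2)) ^ (3 ^ (m + 1) + 2) = r)
    (b : ↥(twistedG2 K (3 ^ m)))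
    (hb : (b : GL chevG2.Idx K) ∈ chevG2.borelSubgroup K) :
    ∃ (t u v : K) (κ : Kˣ), b = RG C t u v * hG C hK κ := by
  obtain ⟨hbG, hfix⟩ := C.fixed_of_mem (b : GL chevG2.Idx K) b.2
  obtain ⟨u, hu, h, hh, hbuh⟩ := C.fixed_B_decomp hK hcan ⟨(b : GL chevG2.Idx K), hbG⟩ hb hfix
  obtain ⟨t, u', v, hR⟩ := exists_RG C ⟨u, hu.2⟩ hu.1
  obtain ⟨κ, hκ⟩ := exists_hG C hK a4 ⟨h, hh.2⟩ hh.1
  refine ⟨t, u', v, κ, Subtype.ext ?_⟩
  rw [Subgroup.coe_mul, ← hR, ← hκ]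
  exact hbuh

theorem bruhatG (hK : Fintype.card K = 3 ^ (2 * m + 1)) (hcan : CanonG2 K) (hW : WeylG2 K)
    (a4 : ∀ r : K, r ≠ 0 → (r⁻¹ ^ (3 ^ (m + 1) - 2)) ^ (3 ^ (m + 1) + 2) = r)
    (g : ↥(twistedG2 K (3 ^ m))) :
    (∃ (t u v : K) (κ : Kˣ), g = RG C t u v * hG C hK κ) ∨
      ∃ (t u v : K) (κ : Kˣ) (t' u' v' : K),
        g = RG C t u v * hG C hK κ * wG C * RG C t' u' v' := by
  rcases C.mem_decomp hK hcan hW (g : GL chevG2.Idx K) g.2 with h | ⟨b, hb, u, hu, hg⟩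
  · left
    exact exists_RG_hG C hK hcan a4 g h.1
  · right
    obtain ⟨t, u₁, v, κ, hb'⟩ := exists_RG_hG C hK hcan a4 ⟨b, hb.2⟩ hb.1
    obtain ⟨t', u', v', hu'⟩ := exists_RG C ⟨u, hu.2⟩ hu.1
    refine ⟨t, u₁, v, κ, t', u', v', Subtype.ext ?_⟩
    rw [Subgroup.coe_mul, Subgroup.coe_mul, ← hu', ← hb', wG_coe]
    exact hg

theorem UH_G (hK : Fintype.card K = 3 ^ (2 * m + 1)) (hcan : CanonG2 K)
    (a4 : ∀ r : K, r ≠ 0 → (r⁻¹ ^ (3 ^ (m + 1) - 2)) ^ (3 ^ (m + 1) + 2) = r)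
    (t u v : K) (κ : Kˣ) (h : RG C t u v = hG C hK κ) : κ = 1 := by
  have h1 : ((RG C t u v : ↥(twistedG2 K (3 ^ m))) : GL chevG2.Idx K) = 1 :=
    C.U_inf_H hcan _ (RG_mem_U C t u v) (by rw [h]; exact hG_mem_H C hK κ)
  have h2 : hG C hK κ = 1 := by
    rw [← h]
    exact Subtype.ext h1
  exact hG_inj C hK a4 (h2.trans (hG_one C hK).symm)

theorem BwB_G (hK : Fintype.card K = 3 ^ (2 * m + 1)) (hcan : CanonG2 K)
    (t u v : K) (κ : Kˣ) (t' u' v' : K) (κ' : Kˣ)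
    (h : (wG C)⁻¹ * (RG C t u v * hG C hK κ) * wG C = RG C t' u' v' * hG C hK κ') :
    t = 0 ∧ u = 0 ∧ v = 0 := by
  have hy : ((RG C t u v * hG C hK κ : ↥(twistedG2 K (3 ^ m))) : GL chevG2.Idx K) ∈
      chevG2.borelSubgroup K := by
    rw [Subgroup.coe_mul]
    exact mul_mem (U_le_B (RG_mem_U C t u v)) (H_le_B (hG_mem_H C hK κ))
  have h0 := congrArg (fun z : ↥(twistedG2 K (3 ^ m)) => (z : GL chevG2.Idx K)) h
  simp only [Subgroup.coe_mul, Subgroup.coe_inv, wG_coe] at h0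
  have hy2 : (C.n0 : GL chevG2.Idx K)⁻¹ *
      ((RG C t u v * hG C hK κ : ↥(twistedG2 K (3 ^ m))) : GL chevG2.Idx K) *
      (C.n0 : GL chevG2.Idx K) ∈ chevG2.borelSubgroup K := by
    rw [Subgroup.coe_mul, h0]
    exact mul_mem (U_le_B (RG_mem_U C t' u' v')) (H_le_B (hG_mem_H C hK κ'))
  have hd := C.mem_H_of_conj hcan _ hy hy2
  have hR : ((RG C t u v : ↥(twistedG2 K (3 ^ m))) : GL chevG2.Idx K) ∈
      chevG2.diagonalSubgroup K := by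
    have e : ((RG C t u v : ↥(twistedG2 K (3 ^ m))) : GL chevG2.Idx K) =
        ((RG C t u v * hG C hK κ : ↥(twistedG2 K (3 ^ m))) : GL chevG2.Idx K) *
          ((hG C hK κ : ↥(twistedG2 K (3 ^ m))) : GL chevG2.Idx K)⁻¹ := by
      rw [Subgroup.coe_mul, mul_inv_cancel_right]
    rw [e]
    exact mul_mem hd (inv_mem (hG_mem_H C hK κ))
  have h1 := C.U_inf_H hcan _ (RG_mem_U C t u v) hR
  have h2 : RG C t u v = RG C 0 0 0 := by
    rw [RG_zero]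
    exact Subtype.ext h1
  exact RG_inj C _ _ _ _ _ _ h2

theorem wH_G (hK : Fintype.card K = 3 ^ (2 * m + 1))
    (a4 : ∀ r : K, r ≠ 0 → (r⁻¹ ^ (3 ^ (m + 1) - 2)) ^ (3 ^ (m + 1) + 2) = r) (κ : Kˣ) :
    ∃ κ' : Kˣ, (wG C)⁻¹ * hG C hK κ * wG C = hG C hK κ' := by
  apply exists_hG C hK a4
  rw [Subgroup.coe_mul, Subgroup.coe_mul, Subgroup.coe_inv, wG_coe]
  exact (N_conj_H _ _ C.n0_mem_N (hG_mem_H C hK κ)).2

theorem core_G (hK : Fintype.card K = 3 ^ (2 * m + 1)) (hcan : CanonG2 K)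
    (g : ↥(twistedG2 K (3 ^ m)))
    (h : ∀ x : ↥(twistedG2 K (3 ^ m)), ∃ (t u v : K) (κ : Kˣ),
      x⁻¹ * g * x = RG C t u v * hG C hK κ) : g = 1 := by
  have hc := C.core_trivial hcan
  have hg : g ∈ ((chevG2.borelSubgroup K ⊓ twistedG2 K (3 ^ m)).subgroupOf
      (twistedG2 K (3 ^ m))).normalCore := by
    intro b
    obtain ⟨t, u, v, κ, hx⟩ := h b⁻¹
    rw [inv_inv] at hx
    rw [hx, Subgroup.mem_subgroupOf, Subgroup.coe_mul]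
    exact ⟨mul_mem (U_le_B (RG_mem_U C t u v)) (H_le_B (hG_mem_H C hK κ)),
      mul_mem (RG C t u v).2 (hG C hK κ).2⟩
  rw [hc] at hg
  exact hg

theorem syl_G (hK : Fintype.card K = 3 ^ (2 * m + 1)) (hcan : CanonG2 K) (hW : WeylG2 K) :
    ∃ P : Sylow 3 ↥(twistedG2 K (3 ^ m)),
      ∀ x : ↥(twistedG2 K (3 ^ m)), x ∈ P ↔ ∃ t u v : K, x = RG C t u v := by
  obtain ⟨P₀, hP₀⟩ := C.exists_sylow_eq_U1 hK hcan hW
  refine ⟨P₀, fun x => ?_⟩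
  have e : x ∈ P₀ ↔ x ∈ (P₀ : Subgroup ↥(twistedG2 K (3 ^ m))) := Iff.rfl
  rw [e, hP₀, mem_U1sub]
  constructor
  · intro hx
    exact exists_RG C x hx
  · rintro ⟨t, u, v, rfl⟩
    exact RG_mem_U C t u v

/-- The Ree datum of `²G₂(q)`. -/
noncomputable def datum (hK : Fintype.card K = 3 ^ (2 * m + 1)) (hcan : CanonG2 K)
    (hW : WeylG2 K) (a1 : ∀ r : K, r ^ (3 ^ (m + 1) * 3 ^ (m + 1)) = r ^ 3)
    (a4 : ∀ r : K, r ≠ 0 → (r⁻¹ ^ (3 ^ (m + 1) - 2)) ^ (3 ^ (m + 1) + 2) = r) :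
    Datum K ↥(twistedG2 K (3 ^ m)) (3 ^ (m + 1)) where
  R := RG C
  h := hG C hK
  w := wG C
  R_mul := RG_mul C
  R_inj := RG_inj C
  h_mul := hG_mul C hK
  h_inj := hG_inj C hK a4
  h_conj := hG_conj C hK a1
  bruhat := bruhatG C hK hcan hW a4
  UH := UH_G C hK hcan a4
  BwB := BwB_G C hK hcan
  wH := wH_G C hK a4
  core := core_G C hK hcan
  syl := syl_G C hK hcan hW

end

end Cfsg.Agent.H96.Ro
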