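import Cfsg.Agent.H96.RoDatum
import Cfsg.Agent.H23.Struct
import Cfsg.Agent.H23.Sound2

/-!
# S2127 (helper96): field automorphisms of `twistedG2 K (3^m)`
-/

set_option autoImplicit false
set_option linter.unusedSectionVars false

namespace Cfsg.Agent.H96.Ro

open Cfsg Cfsg.Lie Cfsg.Agent.H22 Cfsg.Agent.H22.Ree Cfsg.Agent.H23

universe u

section gen

variable {D : ChevalleyDatum} {K L : Type*} [Field K] [Field L]

theorem evalE_map' (f : K →+* L) (a : K) (l : Cfsg.Agent.H23.Ent) (i : D.Idx) :
    f (evalE D a l i) = evalE D (f a) l i := by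
  rw [evalE_apply, evalE_apply, map_list_sum, List.map_map]
  congr 1
  apply List.map_congr_left
  intro x _
  simp only [Function.comp_apply, map_mul, map_intCast, map_pow]
  split_ifs <;> simp

theorem x_map' (f : K →+* L) (r : ℕ) (t : K) (i k : D.Idx) :
    f (D.x K r t i k) = D.x L r (f t) i k := by
  by_cases hr : r < D.nroots
  · rw [x_apply (F := K) r hr, x_apply (F := L) r hr, evalE_map']
  · simp only [ChevalleyDatum.x, dif_neg hr]
    by_cases hik : i = k
    · subst hik; simp
    · simp [Matrix.one_apply_ne hik]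

theorem wordMat_map' (f : K →+* K) (w : List (ℕ × K)) :
    (D.wordMat K w).map f = D.wordMat K (w.map fun p => (p.1, f p.2)) := by
  unfold ChevalleyDatum.wordMat
  induction w with
  | nil =>
    simp only [List.map_nil, List.prod_nil]
    exact Matrix.map_one f (map_zero f) (map_one f)
  | cons p w ih =>
    simp only [List.map_cons, List.prod_cons]
    rw [Matrix.map_mul, ih]
    congr 1
    ext i k
    rw [Matrix.map_apply, x_map']

theorem coe_glmap (f : K →+* K) (g : GL D.Idx K) :
    ((Matrix.GeneralLinearGroup.map f g : GL D.Idx K) : Matrix D.Idx D.Idx K) =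
      (g : Matrix D.Idx D.Idx K).map f := by
  ext i j
  rfl

end gen

section

variable {K : Type u} [Field K] {e : ℕ}

theorem reeWordU_map (f : K →+* K) (t u v : K) :
    ((reeWordU e t u v).map fun p => (p.1, f p.2)) = reeWordU e (f t) (f u) (f v) := by
  simp [reeWordU, map_pow, map_add]

theorem reeWordV_map (f : K →+* K) (t u v : K) :
    ((reeWordV e t u v).map fun p => (p.1, f p.2)) = reeWordV e (f t) (f u) (f v) := by
  simp [reeWordV, reeWordU, ChevalleyDatum.negWord, map_pow, map_add, map_neg]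

/-- the entrywise map preserves the twisted group -/
theorem glmap_mem (f : K →+* K) (x : GL chevG2.Idx K) (hx : x ∈ twistedG2 K e) :
    Matrix.GeneralLinearGroup.map f x ∈ twistedG2 K e := by
  unfold twistedG2 ChevalleyDatum.genSubgroup at hx ⊢
  induction hx using Subgroup.closure_induction with
  | mem y hy =>
    obtain ⟨w, ⟨t, u, v, hw | hw⟩, hyw⟩ := hy
    · apply Subgroup.subset_closure
      refine ⟨reeWordU e (f t) (f u) (f v), ⟨f t, f u, f v, Or.inl rfl⟩, ?_⟩
      rw [coe_glmap, hyw, wordMat_map', hw, reeWordU_map]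
    · apply Subgroup.subset_closure
      refine ⟨reeWordV e (f t) (f u) (f v), ⟨f t, f u, f v, Or.inr rfl⟩, ?_⟩
      rw [coe_glmap, hyw, wordMat_map', hw, reeWordV_map]
  | one => rw [map_one]; exact one_mem _
  | mul a b _ _ iha ihb => rw [map_mul]; exact mul_mem iha ihb
  | inv a _ iha => rw [map_inv]; exact inv_mem iha

/-- the automorphism of the twisted group induced by a field automorphism -/
noncomputable def frob (σ : K ≃+* K) : ↥(twistedG2 K e) ≃* ↥(twistedG2 K e) where
  toFun x := ⟨Matrix.GeneralLinearGroup.map (σ : K →+* K) (x : GL chevG2.Idx K),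
    glmap_mem _ _ x.2⟩
  invFun x := ⟨Matrix.GeneralLinearGroup.map (σ.symm : K →+* K) (x : GL chevG2.Idx K),
    glmap_mem _ _ x.2⟩
  left_inv x := by
    apply Subtype.ext
    apply Units.ext
    ext i j
    simp
  right_inv x := by
    apply Subtype.ext
    apply Units.ext
    ext i j
    simp
  map_mul' x y := by
    apply Subtype.ext
    simp

theorem frob_coe (σ : K ≃+* K) (x : ↥(twistedG2 K e)) :
    (((frob σ x : ↥(twistedG2 K e)) : GL chevG2.Idx K) : Matrix chevG2.Idx chevG2.Idx K) =
      ((x : GL chevG2.Idx K) : Matrix chevG2.Idx chevG2.Idx K).map (σ : K →+* K) :=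
  coe_glmap _ _

/-- field automorphisms as a homomorphism into the automorphism group -/
noncomputable def frobHom : (K ≃+* K) →* MulAut ↥(twistedG2 K e) where
  toFun σ := frob σ
  map_one' := by
    apply MulEquiv.ext
    intro x
    apply Subtype.ext
    apply Units.ext
    rw [frob_coe]
    ext i j
    rfl
  map_mul' σ τ := by
    apply MulEquiv.ext
    intro x
    apply Subtype.ext
    apply Units.ext
    rw [frob_coe, MulAut.mul_apply, frob_coe, frob_coe]
    ext i j
    rfl

theorem frobHom_coe (σ : K ≃+* K) (x : ↥(twistedG2 K e)) :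
    (((frobHom σ x : ↥(twistedG2 K e)) : GL chevG2.Idx K) : Matrix chevG2.Idx chevG2.Idx K) =
      ((x : GL chevG2.Idx K) : Matrix chevG2.Idx chevG2.Idx K).map (σ : K →+* K) :=
  coe_glmap _ _

end

section

variable {K : Type u} [Field K] [CharP K 3] [Fintype K] {m : ℕ} (C : Ctx K (3 ^ m))

theorem frob_RG (σ : K ≃+* K) (t u v : K) :
    frobHom σ (RG C t u v) = RG C (σ t) (σ u) (σ v) := by
  apply Subtype.ext
  apply Units.ext
  rw [frobHom_coe, RG_coe, RG_coe, C.R_val, C.R_val, wordMat_map', reeWordU_map]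
  rfl

omit [CharP K 3] [Fintype K] in
theorem dg_map (f : K →+* K) (a b : K) : (dg a b).map f = dg (f a) (f b) := by
  unfold dg
  rw [Matrix.diagonal_map (map_zero f)]
  congr 1
  funext j
  rcases j with i | s
  · show f 1 = 1
    exact map_one f
  · rw [torusDiag_inr, torusDiag_inr]
    simp [cc, map_mul, map_zpow₀]

theorem frob_hG (hK : Fintype.card K = 3 ^ (2 * m + 1)) (σ : K ≃+* K) (κ : Kˣ) :
    frobHom σ (hG C hK κ) = hG C hK (Units.map ((σ : K →+* K) : K →* K) κ) := by
  have h2 : (κ : K) ^ (3 ^ (m + 1) + 2) ≠ 0 := pow_ne_zero _ κ.ne_zero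
  have h1 : C.τ ((κ : K) ^ (3 ^ (m + 1) + 2)) ≠ 0 := (map_ne_zero C.τ).mpr h2
  have h2' : ((Units.map ((σ : K →+* K) : K →* K) κ : Kˣ) : K) ^ (3 ^ (m + 1) + 2) ≠ 0 :=
    pow_ne_zero _ (Units.ne_zero _)
  have h1' : C.τ (((Units.map ((σ : K →+* K) : K →* K) κ : Kˣ) : K) ^ (3 ^ (m + 1) + 2)) ≠ 0 :=
    (map_ne_zero C.τ).mpr h2'
  apply Subtype.ext
  apply Units.ext
  rw [frobHom_coe, hG_coe, hG_coe, C.hh_val _ _ h1 h2, C.hh_val _ _ h1' h2', dg_map]
  congr 1
  · rw [C.τ_eq, C.τ_eq]
    simp [map_pow]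
  · simp [map_pow]

end

end Cfsg.Agent.H96.Ro
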