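import Cfsg.Agent.H96.RoFrob
import Cfsg.Agent.H67.RoArith
import Cfsg.Agent.H67.RoField
import Cfsg.Agent.H67.RoTriv2B
import Cfsg.Agent.H1.RoCube
import Cfsg.Agent.H1.RoTriv2A
import Cfsg.Agent.H62.RoCard
import Cfsg.Agent.H62.RoNorm
import Cfsg.Agent.H62.RoTriv1
import Cfsg.Agent.H32.RoNormA
import Cfsg.Agent.H32.RoNormB
import Cfsg.Agent.H34.RoShape
import Cfsg.Agent.H34.RoCoord
import Cfsg.Agent.H75.RoTriv
import Cfsg.Agent.H75.RoFinal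
import Cfsg.Agent.H94.RoRigid
import Cfsg.Agent.H94.RoInner
import Cfsg.Prelude.Def_KGroupFacts

/-!
# S2127 (helper96): `|Out(²G₂(q))| = 2m + 1` — assembly of the team pieces
-/

set_option autoImplicit false

namespace Cfsg.Agent.H96.Ro

open Cfsg Cfsg.Lie Cfsg.Agent.H22 Cfsg.Agent.H22.Ree

universe u

/-- the abstract theorem, all pieces assembled -/
theorem final_all : StFinal.{u, u} :=
  Cfsg.Agent.H75.Ro.final
    (Cfsg.Agent.H62.Ro.norm Cfsg.Agent.H32.Ro.normA Cfsg.Agent.H32.Ro.normB)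
    (Cfsg.Agent.H34.Ro.coord (Cfsg.Agent.H34.Ro.shape Cfsg.Agent.H1.Ro.cube)
      Cfsg.Agent.H67.Ro.field
      (Cfsg.Agent.H75.Ro.triv (Cfsg.Agent.H62.Ro.triv1 Cfsg.Agent.H1.Ro.cube)
        (Cfsg.Agent.H1.Ro.triv2A Cfsg.Agent.H67.Ro.arith)
        (Cfsg.Agent.H67.Ro.triv2B Cfsg.Agent.H67.Ro.arith)))
    (Cfsg.Agent.H94.Ro.rigid Cfsg.Agent.H67.Ro.arith)
    (Cfsg.Agent.H94.Ro.inner Cfsg.Agent.H67.Ro.arith)
    Cfsg.Agent.H62.Ro.card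

/-- `|Out(²G₂(q))| = 2m + 1` from a Ree context. -/
theorem card_out {K : Type u} [Field K] [CharP K 3] [Fintype K] {m : ℕ} (C : Ctx K (3 ^ m))
    (hm : 1 ≤ m) (hK : Fintype.card K = 3 ^ (2 * m + 1)) (hcan : CanonG2 K) (hW : WeylG2 K) :
    Nat.card (Cfsg.Out ↥(twistedG2 K (3 ^ m))) = 2 * m + 1 := by
  obtain ⟨a1, -, -, a4, -, -, -⟩ := Cfsg.Agent.H67.Ro.arith.{u} K m hm hK
  have hfin : Finite ↥(twistedG2 K (3 ^ m)) := inferInstance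
  exact final_all K m hm hK ↥(twistedG2 K (3 ^ m)) (datum C hK hcan hW a1 a4) frobHom
    (fun σ t u v => frob_RG C σ t u v)
    (fun σ κ => ⟨Units.map ((σ : K →+* K) : K →* K) κ, rfl, frob_hG C hK σ κ⟩)

end Cfsg.Agent.H96.Ro
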